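import Cfsg.Prelude.Def_Blocks
import Cfsg.Agent.S0188
import Cfsg.Agent.S0164
import Cfsg.Agent.Lib.Helper79.CentralTwist
import Cfsg.Agent.Lib.Helper82.QuotBlock
import Cfsg.Agent.Lib.Helper75.RegularBlock
import Cfsg.Agent.Lib.Helper78.DefectCard
import Cfsg.Agent.Lib.Helper80.Inflation

set_option autoImplicit false
open Cfsg

namespace Cfsg.Agent.Lib.Helper79.CPB

open Cfsg.Agent.Lib.Helper78 Cfsg.Agent.Lib.Helper79
open scoped ComplexConjugate

section aux

/-- Deflation of an irreducible character along a surjective homomorphism. -/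
theorem exists_irr_of_surjective {H G : Type*} [Group H] [Finite H] [Group G] (μ : H →* G)
    (hμ : Function.Surjective μ) {χ : H → ℂ} (h : IsIrrCharacter H χ)
    (hker : ∀ n ∈ μ.ker, χ n = χ 1) :
    ∃ ψ : G → ℂ, IsIrrCharacter G ψ ∧ ∀ x : H, ψ (μ x) = χ x := by
  obtain ⟨ψ, hψ, hψχ⟩ := Cfsg.Agent.Lib.Helper80.exists_deflate_irr μ.ker h hker
  let e : H ⧸ μ.ker ≃* G := QuotientGroup.quotientKerEquivOfSurjective μ hμ
  refine ⟨ψ ∘ e.symm, Cfsg.Agent.Lib.Helper80.isIrrCharacter_comp e.symm.toMonoidHom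
    e.symm.surjective hψ, fun x => ?_⟩
  have : e.symm (μ x) = (x : H ⧸ μ.ker) := by
    rw [MulEquiv.symm_apply_eq]
    rfl
  simp only [Function.comp_apply, this, hψχ]

/-- A constant irreducible character is trivial. -/
theorem irr_eq_one_of_const {P : Type*} [Group P] [Finite P] (φ : IrrCharacter P)
    (h : ∀ x : P, (φ : P → ℂ) x = (φ : P → ℂ) 1) : ∀ x : P, (φ : P → ℂ) x = 1 := by
  have := Fintype.ofFinite P
  have h1 := Cfsg.Agent.Lib.Helper3.classInner_irr_self φ.2
  unfold classInner at h1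
  simp_rw [h, irr_conj_one] at h1
  rw [Finset.sum_const, Finset.card_univ, ← Nat.card_eq_fintype_card, nsmul_eq_mul, ← mul_assoc,
    inv_mul_cancel₀ (by exact_mod_cast Nat.card_pos.ne'), one_mul, irr_one_eq] at h1
  have h2 : charDegree (φ : P → ℂ) * charDegree (φ : P → ℂ) = 1 := by exact_mod_cast h1
  have h3 : charDegree (φ : P → ℂ) = 1 := Nat.eq_one_of_mul_eq_one_right h2
  intro x
  rw [h x, irr_one_eq, h3]; simp

end aux

/-- `G = P C_G(P)`, `B` a block with defect group `P`: the canonical character `θ` and the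
parametrisation `Θ : Irr(P) → B` with `Θ η = η θ(1)` on `P`. -/
theorem exists_family {G : Type*} [Group G] [Finite G] (p : ℕ) [Fact p.Prime] (M : Ideal Cfsg.AlgInt)
    (hM : Cfsg.IsPModular p M) (P : Subgroup G) (hP : IsPGroup p P)
    (hG : P ⊔ Subgroup.centralizer (P : Set G) = ⊤) (B : Set (Cfsg.IrrCharacter G))
    (hB : Cfsg.IsPBlock M B) (hD : Cfsg.IsDefectGroup p M B P) :
    ∃ (θ : IrrCharacter G) (Θ : IrrCharacter P → IrrCharacter G),
      θ ∈ B ∧ (∀ x ∈ P, (θ : G → ℂ) x = (θ : G → ℂ) 1) ∧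
      (charDegree (θ : G → ℂ)).factorization p = P.index.factorization p ∧
      Function.Injective Θ ∧ B = Set.range Θ ∧
      ∀ (η : IrrCharacter P) (x : P), (Θ η : G → ℂ) x = (η : P → ℂ) x * (θ : G → ℂ) 1 := by
  classical
  have := Fintype.ofFinite G
  have hp : p.Prime := Fact.out
  have hMp := pmod_isPrime hM
  set C := Subgroup.centralizer (P : Set G) with hC
  have hPn : P.Normal := by
    rw [← Subgroup.normalizer_eq_top_iff, eq_top_iff, ← hG]
    exact sup_le Subgroup.le_normalizer (Subgroup.centralizer_le_normalizer (P : Set G))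
  have hcomm : ∀ (m : P) (n : C), Commute (P.subtype m) (C.subtype n) := fun m n =>
    Subgroup.mem_centralizer_iff.1 n.2 m m.2
  let μ : P × C →* G := MonoidHom.noncommCoprod P.subtype C.subtype hcomm
  have hμ : ∀ (x : P) (c : C), μ (x, c) = (x : G) * (c : G) := fun x c => rfl
  have hμsurj : Function.Surjective μ := by
    rw [← MonoidHom.range_eq_top, MonoidHom.noncommCoprod_range, Subgroup.range_subtype,
      Subgroup.range_subtype]
    exact hG
  -- degrees of the members of `B` with `P` in the kernel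
  have hdegB : ∀ θ ∈ B, (∀ x ∈ P, (θ : G → ℂ) x = (θ : G → ℂ) 1) →
      (charDegree (θ : G → ℂ)).factorization p = P.index.factorization p := by
    intro θ hθ hker
    have h1 := card_of_isDefectGroup hM hB hD
    have h2 := factorization_index_add p P
    have h3 : (Nat.card P).factorization p = blockDefect p B := by
      rw [h1, hp.factorization_pow]; simp
    have h4 := minDeg_le (p := p) hθ
    have h5 := blockDefect_eq p B
    have h6 := minDeg_le_card (p := p) (IsPBlock.nonempty hMp hB)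
    obtain ⟨ψ, hψ, hψθ⟩ := Cfsg.Agent.Lib.Helper80.exists_deflate_irr P θ.2 hker
    have h7 : charDegree ψ = charDegree (θ : G → ℂ) := by
      have e1 := irr_one_eq ⟨ψ, hψ⟩
      have e2 := irr_one_eq θ
      have e3 := hψθ 1
      simp only at e1
      rw [QuotientGroup.mk_one, e1, e2] at e3
      exact_mod_cast e3
    have h8 : charDegree (θ : G → ℂ) ∣ P.index := by
      rw [← h7]
      exact irr_charDegree_dvd_card ⟨ψ, hψ⟩
    have h9 : (charDegree (θ : G → ℂ)).factorization p ≤ P.index.factorization p :=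
      (Nat.factorization_le_iff_dvd (irr_charDegree_pos θ).ne'
        Subgroup.index_ne_zero_of_finite).2 h8 p
    omega
  obtain ⟨θ, hθB, hθP⟩ := Cfsg.Agent.Lib.Helper82.exists_mem_block_ker p P hM hP B hB
  have hθdeg := hdegB θ hθB hθP
  -- the restriction of `θ` to `C` is irreducible
  have hθC : IsIrrCharacter C (fun c : C => (θ : G → ℂ) c) := by
    have h1 := Cfsg.Agent.Lib.Helper80.isIrrCharacter_comp μ hμsurj θ.2
    obtain ⟨φ, ψ, hφ, hψ, heq⟩ := (Cfsg.Agent.S0188.result _).1 h1
    have hval : ∀ (x : P) (c : C), (θ : G → ℂ) ((x : G) * (c : G)) = φ x * ψ c := fun x c =>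
      congrFun heq (x, c)
    have hψ1 : ψ 1 ≠ 0 := irr_one_ne_zero ⟨ψ, hψ⟩
    have hconst : ∀ x : P, φ x = φ 1 := by
      intro x
      have e1 := hval x 1
      have e2 := hval 1 1
      simp only [Subgroup.coe_one, mul_one] at e1 e2
      rw [hθP x x.2, e2] at e1
      exact (mul_right_cancel₀ hψ1 e1).symm
    have hφ1 := irr_eq_one_of_const ⟨φ, hφ⟩ hconst
    have : (fun c : C => (θ : G → ℂ) c) = ψ := by
      funext c
      have e1 := hval 1 c
      simp only [Subgroup.coe_one, one_mul] at e1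
      rw [e1]
      have := hφ1 1
      simp only at this
      rw [this, one_mul]
    rw [this]; exact hψ
  let θC : IrrCharacter C := ⟨fun c : C => (θ : G → ℂ) c, hθC⟩
  -- the central `p`-subgroup `Z = P ∩ C` of `C`
  set Z : Subgroup C := P.subgroupOf C with hZ
  have hZmem : ∀ z : C, z ∈ Z ↔ (z : G) ∈ P := fun z => Subgroup.mem_subgroupOf
  have hZc : Z ≤ Subgroup.center C := by
    intro z hz
    rw [Subgroup.mem_center_iff]
    intro c
    apply Subtype.ext
    exact (Subgroup.mem_centralizer_iff.1 c.2 z ((hZmem z).1 hz)).symm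
  have hZp : IsPGroup p Z := hP.comap_subtype
  have hθZ : ∀ z ∈ Z, (θC : C → ℂ) z = (θC : C → ℂ) 1 := fun z hz => hθP z ((hZmem z).1 hz)
  have hZidx : Z.index = P.index := by
    have h1 : P.relIndex (P ⊔ C) = P.relIndex C := Subgroup.relIndex_sup_left C P
    rw [hG, Subgroup.relIndex_top_right] at h1
    exact h1.symm
  have hdegC : (charDegree (θC : C → ℂ)).factorization p + (Nat.card Z).factorization p
      = (Nat.card C).factorization p := by
    have h1 := factorization_index_add p Z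
    have h2 : charDegree (θC : C → ℂ) = charDegree (θ : G → ℂ) := by
      have e1 := irr_one_eq θC
      have e2 := irr_one_eq θ
      have e3 : (θC : C → ℂ) 1 = (θ : G → ℂ) 1 := rfl
      rw [e1, e2] at e3
      exact_mod_cast e3
    rw [h2, hθdeg, ← hZidx]
    exact h1
  have hBr : BrauerChar C := fun ϑ h1 h2 => Cfsg.Agent.S0164.result ϑ h1 h2
  -- the linear characters of `Z` attached to the irreducible characters of `P`
  let lam : IrrCharacter P → C → ℂ := fun η c =>
    extendByZero P (η : P → ℂ) (c : G) / (η : P → ℂ) 1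
  have hlam : ∀ (η : IrrCharacter P) (z : C) (hz : (z : G) ∈ P),
      lam η z = (η : P → ℂ) ⟨z, hz⟩ / (η : P → ℂ) 1 := by
    intro η z hz
    change extendByZero P (η : P → ℂ) (z : G) / (η : P → ℂ) 1 = _
    rw [Cfsg.Agent.Lib.Helper3.extendByZero_apply_mem P _ hz]
  have hcenP : ∀ (z : C) (hz : (z : G) ∈ P), (⟨z, hz⟩ : P) ∈ Subgroup.center P := by
    intro z hz
    rw [Subgroup.mem_center_iff]
    intro x
    apply Subtype.ext
    exact Subgroup.mem_centralizer_iff.1 z.2 x x.2
  have hlam1 : ∀ η : IrrCharacter P, lam η 1 = 1 := by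
    intro η
    rw [hlam η 1 P.one_mem]
    exact div_self (irr_one_ne_zero η)
  have hlam_mul : ∀ η : IrrCharacter P, ∀ a ∈ Z, ∀ b ∈ Z, lam η (a * b) = lam η a * lam η b := by
    intro η a ha b hb
    have ha' := (hZmem a).1 ha
    have hb' := (hZmem b).1 hb
    rw [hlam η a ha', hlam η b hb', hlam η (a * b) (P.mul_mem ha' hb')]
    have h1 := irr_center_mul η.2 (hcenP a ha') ⟨b, hb'⟩
    have h2 := irr_one_ne_zero η
    have h3 : (⟨((a * b : C) : G), P.mul_mem ha' hb'⟩ : P) = ⟨a, ha'⟩ * ⟨b, hb'⟩ := rfl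
    rw [h3]
    field_simp
    exact h1
  have hη_norm : ∀ (η : IrrCharacter P) (a : C) (ha : (a : G) ∈ P),
      (η : P → ℂ) ⟨a, ha⟩ * conj ((η : P → ℂ) ⟨a, ha⟩) = (η : P → ℂ) 1 * (η : P → ℂ) 1 := by
    intro η a ha
    have h1 := irr_center_mul η.2 (hcenP a ha) (⟨a, ha⟩ : P)⁻¹
    rw [mul_inv_cancel, irr_inv] at h1
    exact h1.symm
  have hlam_norm : ∀ η : IrrCharacter P, ∀ a ∈ Z, lam η a * conj (lam η a) = 1 := by
    intro η a ha
    have ha' := (hZmem a).1 ha
    rw [hlam η a ha', map_div₀, irr_conj_one]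
    have h2 := irr_one_ne_zero η
    field_simp
    rw [hη_norm η a ha']; ring
  have hϑ : ∀ η : IrrCharacter P, IsIrrCharacter C (twist p Z (lam η) (θC : C → ℂ)) := fun η =>
    isIrrCharacter_twist hp hBr hZc hZp θC hθZ hdegC (lam η) (hlam1 η) (hlam_mul η) (hlam_norm η)
  have hprod : ∀ η : IrrCharacter P, IsIrrCharacter (P × C)
      (fun x => (η : P → ℂ) x.1 * twist p Z (lam η) (θC : C → ℂ) x.2) := fun η =>
    (Cfsg.Agent.S0188.result _).2 ⟨η, _, η.2, hϑ η, rfl⟩
  have htw1 : ∀ η : IrrCharacter P, twistFactor p Z (lam η) 1 = 1 := fun η =>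
    twistFactor_of_regular hp hZc hZp (lam η) (hlam1 η) (by simp [hp.one_lt.ne'])
  have hker : ∀ η : IrrCharacter P, ∀ n ∈ μ.ker,
      (fun x : P × C => (η : P → ℂ) x.1 * twist p Z (lam η) (θC : C → ℂ) x.2) n
        = (fun x : P × C => (η : P → ℂ) x.1 * twist p Z (lam η) (θC : C → ℂ) x.2) 1 := by
    rintro η ⟨x, c⟩ hn
    have hxc : (x : G) * (c : G) = 1 := hn
    have hcP : (c : G) ∈ P := by
      have : (c : G) = (x : G)⁻¹ := (eq_inv_of_mul_eq_one_right hxc)
      rw [this]; exact P.inv_mem x.2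
    have hx : x = (⟨c, hcP⟩ : P)⁻¹ := by
      apply Subtype.ext
      exact eq_inv_of_mul_eq_one_left hxc
    have hcZ : c ∈ Z := (hZmem c).2 hcP
    simp only [Prod.fst_one, Prod.snd_one]
    unfold twist
    have h1 := twistFactor_mul (p := p) (lam η) (hlam_mul η) (hlam_norm η) hcZ 1
    rw [mul_one] at h1
    rw [h1, htw1, hθZ c hcZ, hx, irr_inv, hlam η c hcP]
    have h2 := irr_one_ne_zero η
    have h3 := hη_norm η c hcP
    field_simp
    linear_combination ((θC : C → ℂ) 1) * h3
  choose Θ0 hΘ0irr hΘ0 using fun η : IrrCharacter P =>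
    exists_irr_of_surjective μ hμsurj (hprod η) (hker η)
  let Θ : IrrCharacter P → IrrCharacter G := fun η => ⟨Θ0 η, hΘ0irr η⟩
  have hΘ : ∀ (η : IrrCharacter P) (x : P) (c : C), (Θ η : G → ℂ) ((x : G) * (c : G))
      = (η : P → ℂ) x * ((θ : G → ℂ) c * twistFactor p Z (lam η) c) := fun η x c =>
    hΘ0 η (x, c)
  -- `p`-regular elements lie in `C`
  have hregC : ∀ y : G, ¬ p ∣ orderOf y → y ∈ C := by
    intro y hy
    obtain ⟨⟨x, c⟩, hxc⟩ := hμsurj y
    have hxc' : (x : G) * (c : G) = y := hxc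
    obtain ⟨k, hk⟩ := IsPGroup.iff_card.1 hP
    have h1 : y ^ (p ^ k) = (c : G) ^ (p ^ k) := by
      have hc2 : Commute (x : G) (c : G) := hcomm x c
      rw [← hxc', hc2.mul_pow]
      have : (x : G) ^ (p ^ k) = 1 := by
        have := pow_card_eq_one' (x := x)
        rw [hk] at this
        exact_mod_cast congrArg Subtype.val this
      rw [this, one_mul]
    have hcop : (p ^ k).Coprime (orderOf y) :=
      Nat.Coprime.pow_left _ ((Nat.Prime.coprime_iff_not_dvd hp).2 hy)
    obtain ⟨m, hm⟩ := exists_pow_eq_self_of_coprime hcop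
    rw [← hm, h1]
    exact C.pow_mem (C.pow_mem c.2 _) _
  have hΘreg : ∀ (η : IrrCharacter P) (y : G), ¬ p ∣ orderOf y →
      (Θ η : G → ℂ) y = (η : P → ℂ) 1 * (θ : G → ℂ) y := by
    intro η y hy
    have h1 := hΘ η 1 ⟨y, hregC y hy⟩
    rw [twistFactor_of_regular hp hZc hZp (lam η) (hlam1 η)
      (by rwa [Subgroup.orderOf_mk]), mul_one] at h1
    simpa using h1
  have hΘB : ∀ η : IrrCharacter P, Θ η ∈ B := by
    intro η
    apply IsPBlock.mem_of_sameBlock hMp hB hθB
    apply Cfsg.Agent.Lib.Helper75.sameBlock_of_regular hM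
    intro y hy
    have h1 : centralChar (θ : G → ℂ) y = centralChar (Θ η : G → ℂ) y := by
      unfold centralChar
      rw [hΘreg η y hy, hΘreg η 1 (by simp [hp.one_lt.ne'])]
      have h2 := irr_one_ne_zero η
      have h3 := irr_one_ne_zero θ
      field_simp
    rw [h1, sub_self]
    exact memLocalIdeal_zero hMp
  -- values on `P`
  have hΘP : ∀ (η : IrrCharacter P) (x : P), (Θ η : G → ℂ) x = (η : P → ℂ) x * (θ : G → ℂ) 1 := by
    intro η x
    have h1 := hΘ η x 1
    rw [htw1, mul_one] at h1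
    simpa using h1
  have hΘinj : Function.Injective Θ := by
    intro η η' h
    apply Subtype.ext
    funext x
    have h1 := hΘP η x
    rw [h, hΘP η' x] at h1
    exact (mul_right_cancel₀ (irr_one_ne_zero θ) h1).symm
  -- column orthogonality in `P` at central elements
  have hcol : ∀ (x : P) (z : C), z ∈ Z → ∃ k : ℕ, ∑ η : IrrCharacter P,
      conj ((η : P → ℂ) x) * ((η : P → ℂ) 1 * lam η z) = (Nat.card P : ℂ) * k := by
    intro x z hz
    have hz' := (hZmem z).1 hz
    have h1 := sum_irr_mul (⟨z, hz'⟩ : P) x⁻¹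
    have h2 : ∑ η : IrrCharacter P, conj ((η : P → ℂ) x) * ((η : P → ℂ) 1 * lam η z)
        = ∑ η : IrrCharacter P, (η : P → ℂ) ⟨z, hz'⟩ * (η : P → ℂ) x⁻¹ := by
      refine Finset.sum_congr rfl fun η _ => ?_
      rw [hlam η z hz', irr_inv]
      have := irr_one_ne_zero η
      field_simp
    rw [h2, h1]
    have hcen := Subgroup.mem_center_iff.1 (hcenP z hz')
    have key : ∀ S : Finset P, (∀ t, t ∈ S ↔ (⟨z, hz'⟩ : P) * (t * x⁻¹ * t⁻¹) = 1) →
        ∃ k : ℕ, (S.card : ℂ) = (Nat.card P : ℂ) * k := by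
      intro S hS
      by_cases hxz : x = ⟨z, hz'⟩
      · refine ⟨1, ?_⟩
        have : S = Finset.univ := by
          rw [Finset.eq_univ_iff_forall]
          intro t
          rw [hS, hxz]
          calc (⟨z, hz'⟩ : P) * (t * (⟨z, hz'⟩ : P)⁻¹ * t⁻¹)
              = ((⟨z, hz'⟩ : P) * t) * (⟨z, hz'⟩ : P)⁻¹ * t⁻¹ := by group
            _ = (t * (⟨z, hz'⟩ : P)) * (⟨z, hz'⟩ : P)⁻¹ * t⁻¹ := by rw [hcen t]
            _ = 1 := by group
        rw [this, Finset.card_univ, Nat.card_eq_fintype_card]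
        simp
      · refine ⟨0, ?_⟩
        have : S = ∅ := by
          rw [Finset.eq_empty_iff_forall_notMem]
          intro t ht
          rw [hS] at ht
          apply hxz
          have h3 : t * x * t⁻¹ = ⟨z, hz'⟩ := by
            have : (⟨z, hz'⟩ : P) = (t * x⁻¹ * t⁻¹)⁻¹ := eq_inv_of_mul_eq_one_left ht
            rw [this]; group
          have h4 : x = t⁻¹ * ⟨z, hz'⟩ * t := by rw [← h3]; group
          rw [h4, hcen t⁻¹]; group
        rw [this]; simp
    exact key _ (fun t => by simp)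
  -- the family `Θ` is a union of blocks
  have hA : ∀ g : G, MemLocalRing M (blockCoeff (Set.range Θ) g) := by
    intro g
    obtain ⟨⟨x, c⟩, hxc⟩ := hμsurj g
    have hg : g = (x : G) * (c : G) := hxc.symm
    have h1 : blockCoeff (Set.range Θ) g = (Nat.card G : ℂ)⁻¹ *
        ∑ η : IrrCharacter P, (Θ η : G → ℂ) 1 * conj ((Θ η : G → ℂ) g) := by
      unfold blockCoeff
      rw [finsum_mem_range hΘinj, finsum_eq_sum_of_fintype]
    rw [h1]
    choose! k hk using hcol x
    have h2 : ∑ η : IrrCharacter P, (Θ η : G → ℂ) 1 * conj ((Θ η : G → ℂ) g)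
        = ((θ : G → ℂ) 1 * conj ((θ : G → ℂ) c)) * ((Nat.card P : ℂ) *
          ∑ z : C, if z ∈ Z ∧ ¬ p ∣ orderOf (z * c) then (k z : ℂ) else 0) := by
      calc ∑ η : IrrCharacter P, (Θ η : G → ℂ) 1 * conj ((Θ η : G → ℂ) g)
          = ∑ η : IrrCharacter P, ∑ z : C, ((θ : G → ℂ) 1 * conj ((θ : G → ℂ) c)) *
              (if z ∈ Z ∧ ¬ p ∣ orderOf (z * c) then
                conj ((η : P → ℂ) x) * ((η : P → ℂ) 1 * lam η z) else 0) := by
            refine Finset.sum_congr rfl fun η _ => ?_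
            rw [hΘreg η 1 (by simp [hp.one_lt.ne']), hg, hΘ η x c]
            unfold twistFactor
            rw [map_mul, map_mul, map_sum, Finset.mul_sum, Finset.mul_sum, Finset.mul_sum]
            refine Finset.sum_congr rfl fun z _ => ?_
            split_ifs
            · rw [Complex.conj_conj]; ring
            · simp
        _ = ∑ z : C, ((θ : G → ℂ) 1 * conj ((θ : G → ℂ) c)) *
              (if z ∈ Z ∧ ¬ p ∣ orderOf (z * c) then (Nat.card P : ℂ) * (k z : ℂ) else 0) := by
            rw [Finset.sum_comm]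
            refine Finset.sum_congr rfl fun z _ => ?_
            rw [← Finset.mul_sum]
            congr 1
            split_ifs with hz
            · exact hk z hz.1
            · simp
        _ = _ := by
            rw [← Finset.mul_sum, Finset.mul_sum (a := (Nat.card P : ℂ))]
            congr 1
            refine Finset.sum_congr rfl fun z _ => ?_
            split_ifs <;> simp
    rw [h2]
    have h3 : (Nat.card G : ℂ)⁻¹ * (((θ : G → ℂ) 1 * conj ((θ : G → ℂ) c)) *
        ((Nat.card P : ℂ) * ∑ z : C, if z ∈ Z ∧ ¬ p ∣ orderOf (z * c) then (k z : ℂ) else 0))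
        = (((charDegree (θ : G → ℂ) * Nat.card P : ℕ) : ℂ) / ((Nat.card G : ℕ) : ℂ)) *
          (conj ((θ : G → ℂ) c) *
            ∑ z : C, if z ∈ Z ∧ ¬ p ∣ orderOf (z * c) then (k z : ℂ) else 0) := by
      rw [irr_one_eq]
      push_cast
      ring
    rw [h3]
    apply MemLocalRing.mul hMp
    · apply memLocalRing_natCast_div hM Nat.card_pos.ne'
      rw [Nat.factorization_mul (irr_charDegree_pos θ).ne' Nat.card_pos.ne', Finsupp.add_apply,
        hθdeg, factorization_index_add p P]
    · apply MemLocalRing.mul hMp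
      · rw [← irr_inv]
        exact memLocalRing_of_isIntegral hMp (irr_isIntegral θ _)
      · apply MemLocalRing.sum hMp
        intro z _
        split_ifs
        · exact memLocalRing_natCast hMp _
        · exact memLocalRing_zero hMp
  have hBeq : B = Set.range Θ := by
    apply Set.Subset.antisymm
    · obtain ⟨η0⟩ : Nonempty (IrrCharacter P) := ⟨trivIrr P⟩
      rw [IsPBlock.eq_blockOf hMp hB (hΘB η0)]
      exact blockOf_subset_of_memLocalRing hMp hA ⟨η0, rfl⟩
    · rintro _ ⟨η, rfl⟩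
      exact hΘB η
  exact ⟨θ, Θ, hθB, hθP, hθdeg, hΘinj, hBeq, hΘP⟩

end Cfsg.Agent.Lib.Helper79.CPB
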