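import Mathlib

/-!
# A normal subgroup of odd order acted on by a four-group (helper79)

If `t₁, t₂` are commuting elements of square one in a finite group `Y`, and the centralizers of
`t₁, t₂, t₁ t₂` have at most `c` elements, then every normal subgroup of odd order has at most
`c ^ 3` elements.
-/

set_option autoImplicit false

namespace Cfsg.Agent.Lib.Helper79.InvBound

variable {Y : Type*} [Group Y]

/-- the square root in a group of odd order `n` -/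
def rt (n : ℕ) (x : Y) : Y := x ^ ((n + 1) / 2)

theorem rt_conj (n : ℕ) (g x : Y) : rt n (g * x * g⁻¹) = g * rt n x * g⁻¹ := by
  unfold rt; rw [conj_pow]

theorem rt_inv (n : ℕ) (x : Y) : rt n x⁻¹ = (rt n x)⁻¹ := by
  unfold rt; rw [inv_pow]

theorem rt_mul_self {n : ℕ} (hn : Odd n) {x : Y} (hx : x ^ n = 1) : rt n x * rt n x = x := by
  unfold rt
  obtain ⟨m, rfl⟩ := hn
  have h1 : (2 * m + 1 + 1) / 2 = m + 1 := by omega
  rw [h1, ← pow_add]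
  have h2 : m + 1 + (m + 1) = (2 * m + 1) + 1 := by ring
  rw [h2, pow_succ, hx, one_mul]

theorem rt_sq {n : ℕ} (hn : Odd n) {x : Y} (hx : x ^ n = 1) : rt n (x * x) = x := by
  unfold rt
  obtain ⟨m, rfl⟩ := hn
  have h1 : (2 * m + 1 + 1) / 2 = m + 1 := by omega
  rw [h1, ← pow_two, ← pow_mul]
  have h2 : 2 * (m + 1) = (2 * m + 1) + 1 := by ring
  rw [h2, pow_succ, hx, one_mul]

theorem rt_mem (n : ℕ) {K : Subgroup Y} {x : Y} (hx : x ∈ K) : rt n x ∈ K := K.pow_mem hx _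

section dec

variable {n : ℕ} (hn : Odd n) {K : Subgroup Y} [K.Normal] (hK : ∀ x ∈ K, x ^ n = 1)
include hn hK

/-- existence of the decomposition `k = c * e` with `c` centralized and `e` inverted by `t` -/
theorem exists_dec {t : Y} (ht : t * t = 1) {k : Y} (hk : k ∈ K) :
    ∃ c ∈ K, ∃ e ∈ K, k = c * e ∧ t * c * t⁻¹ = c ∧ t * e * t⁻¹ = e⁻¹ := by
  have htinv : t⁻¹ = t := inv_eq_of_mul_eq_one_left ht
  set j := k⁻¹ * (t * k * t⁻¹) with hj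
  have hjK : j ∈ K := K.mul_mem (K.inv_mem hk) (Subgroup.Normal.conj_mem inferInstance k hk t)
  have hjt : t * j * t⁻¹ = j⁻¹ := by
    have e1 : t * j * t⁻¹ = (t * k * t⁻¹)⁻¹ * ((t * t) * k * (t * t)⁻¹) := by rw [hj]; group
    have e2 : j⁻¹ = (t * k * t⁻¹)⁻¹ * k := by rw [hj]; group
    rw [e1, e2, ht]; simp
  set i := rt n j with hi
  have hiK : i ∈ K := rt_mem n hjK
  have hit : t * i * t⁻¹ = i⁻¹ := by rw [hi, ← rt_conj, hjt, rt_inv]
  have hii : i * i = j := rt_mul_self hn (hK j hjK)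
  refine ⟨k * i, K.mul_mem hk hiK, i⁻¹, K.inv_mem hiK, by group, ?_, ?_⟩
  · have h1 : t * (k * i) * t⁻¹ = (t * k * t⁻¹) * (t * i * t⁻¹) := by group
    have h2 : t * k * t⁻¹ = k * j := by rw [hj]; group
    rw [h1, hit, h2, ← hii]; group
  · have h1 : t * i⁻¹ * t⁻¹ = (t * i * t⁻¹)⁻¹ := by group
    rw [h1, hit]

omit [K.Normal] in
/-- uniqueness of the decomposition -/
theorem dec_unique {t : Y} {c c' e e' : Y} (he : e ∈ K) (he' : e' ∈ K)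
    (hc : t * c * t⁻¹ = c) (hc' : t * c' * t⁻¹ = c')
    (het : t * e * t⁻¹ = e⁻¹) (het' : t * e' * t⁻¹ = e'⁻¹) (h : c * e = c' * e') :
    c = c' ∧ e = e' := by
  have h1 : c'⁻¹ * c = e' * e⁻¹ := by
    have : c = c' * e' * e⁻¹ := by rw [← h]; group
    rw [this]; group
  have h2 : t * (c'⁻¹ * c) * t⁻¹ = c'⁻¹ * c := by
    have : t * (c'⁻¹ * c) * t⁻¹ = (t * c' * t⁻¹)⁻¹ * (t * c * t⁻¹) := by group
    rw [this, hc, hc']
  have h3 : t * (e' * e⁻¹) * t⁻¹ = e'⁻¹ * e := by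
    have : t * (e' * e⁻¹) * t⁻¹ = (t * e' * t⁻¹) * (t * e * t⁻¹)⁻¹ := by group
    rw [this, het, het', inv_inv]
  have h4 : e'⁻¹ * e = e' * e⁻¹ := by rw [← h3, ← h1, h2]
  have h5 : e * e = e' * e' := by
    have : e = e' * (e' * e⁻¹) := by rw [← h4]; group
    calc e * e = e' * (e' * e⁻¹) * e := by rw [← this]
      _ = e' * e' := by group
  have h6 : e = e' := by
    rw [← rt_sq hn (hK e he), h5, rt_sq hn (hK e' he')]
  subst h6
  exact ⟨mul_right_cancel h, rfl⟩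

end dec

/-- the main bound -/
theorem card_le_of_odd [Finite Y] (K : Subgroup Y) [K.Normal] (hodd : Odd (Nat.card K))
    (t₁ t₂ : Y) (h1 : t₁ * t₁ = 1) (h2 : t₂ * t₂ = 1) (h12 : t₁ * t₂ = t₂ * t₁) (c : ℕ)
    (hc1 : Nat.card (Subgroup.centralizer ({t₁} : Set Y)) ≤ c)
    (hc2 : Nat.card (Subgroup.centralizer ({t₂} : Set Y)) ≤ c)
    (hc3 : Nat.card (Subgroup.centralizer ({t₁ * t₂} : Set Y)) ≤ c) :
    Nat.card K ≤ c ^ 3 := by
  classical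
  set n := Nat.card K with hn
  have hK : ∀ x ∈ K, x ^ n = 1 := by
    intro x hx
    have h : ((⟨x, hx⟩ : K) ^ n : K) = 1 := pow_card_eq_one'
    have h' := congrArg (Subgroup.subtype K) h
    rw [map_pow, map_one] at h'
    exact h'
  have ht1 : t₁⁻¹ = t₁ := inv_eq_of_mul_eq_one_left h1
  have ht2 : t₂⁻¹ = t₂ := inv_eq_of_mul_eq_one_left h2
  -- the data attached to k
  have key : ∀ k : K, ∃ d : (Subgroup.centralizer ({t₁} : Set Y)) ×
      (Subgroup.centralizer ({t₂} : Set Y)) × (Subgroup.centralizer ({t₁ * t₂} : Set Y)),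
      (k : Y) = d.1 * d.2.1 * (rt n (d.2.1 : Y))⁻¹ * d.2.2 * rt n (d.2.1 : Y) := by
    intro k
    obtain ⟨c₁, hc₁K, e, heK, hke, hc₁t, het⟩ := exists_dec hodd hK h1 k.2
    obtain ⟨c₂, hc₂K, f, hfK, hef, hc₂t, hft⟩ := exists_dec hodd hK h2 heK
    -- apply t₁ to e = c₂ f
    have hA : (t₁ * c₂ * t₁⁻¹) * (t₁ * f * t₁⁻¹) = c₂⁻¹ * (c₂ * f⁻¹ * c₂⁻¹) := by
      have : (t₁ * c₂ * t₁⁻¹) * (t₁ * f * t₁⁻¹) = t₁ * (c₂ * f) * t₁⁻¹ := by group
      rw [this, ← hef, het, hef]; group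
    have hcomm : ∀ z : Y, t₂ * (t₁ * z * t₁⁻¹) * t₂⁻¹ = t₁ * (t₂ * z * t₂⁻¹) * t₁⁻¹ := by
      intro z
      have e1 : t₂ * (t₁ * z * t₁⁻¹) * t₂⁻¹ = (t₂ * t₁) * z * (t₂ * t₁)⁻¹ := by group
      have e2 : t₁ * (t₂ * z * t₂⁻¹) * t₁⁻¹ = (t₁ * t₂) * z * (t₁ * t₂)⁻¹ := by group
      rw [e1, e2, h12]
    obtain ⟨hB1, hB2⟩ := dec_unique hodd hK (t := t₂)
      (Subgroup.Normal.conj_mem inferInstance f hfK t₁)
      (Subgroup.Normal.conj_mem inferInstance f⁻¹ (K.inv_mem hfK) c₂)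
      (by rw [hcomm, hc₂t])
      (by
        have : t₂ * c₂⁻¹ * t₂⁻¹ = (t₂ * c₂ * t₂⁻¹)⁻¹ := by group
        rw [this, hc₂t])
      (by
        rw [hcomm, hft]; group)
      (by
        have : t₂ * (c₂ * f⁻¹ * c₂⁻¹) * t₂⁻¹
            = (t₂ * c₂ * t₂⁻¹) * (t₂ * f * t₂⁻¹)⁻¹ * (t₂ * c₂ * t₂⁻¹)⁻¹ := by group
        rw [this, hc₂t, hft]; group)
      hA
    set u := rt n c₂ with hu
    have huu : u * u = c₂ := rt_mul_self hodd (hK c₂ hc₂K)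
    have conj3 : ∀ z : Y, (t₁ * t₂) * z * (t₁ * t₂)⁻¹ = t₁ * (t₂ * z * t₂⁻¹) * t₁⁻¹ := by
      intro z; group
    have hc₂3 : (t₁ * t₂) * c₂ * (t₁ * t₂)⁻¹ = c₂⁻¹ := by rw [conj3, hc₂t, hB1]
    have hu3 : (t₁ * t₂) * u * (t₁ * t₂)⁻¹ = u⁻¹ := by rw [hu, ← rt_conj, hc₂3, rt_inv]
    have hf3 : (t₁ * t₂) * f * (t₁ * t₂)⁻¹ = c₂ * f * c₂⁻¹ := by
      rw [conj3, hft]
      have : t₁ * f⁻¹ * t₁⁻¹ = (t₁ * f * t₁⁻¹)⁻¹ := by group
      rw [this, hB2]; group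
    have hj3 : (t₁ * t₂) * (u * f * u⁻¹) * (t₁ * t₂)⁻¹ = u * f * u⁻¹ := by
      have : (t₁ * t₂) * (u * f * u⁻¹) * (t₁ * t₂)⁻¹
          = ((t₁ * t₂) * u * (t₁ * t₂)⁻¹) * ((t₁ * t₂) * f * (t₁ * t₂)⁻¹)
            * ((t₁ * t₂) * u * (t₁ * t₂)⁻¹)⁻¹ := by group
      rw [this, hu3, hf3, ← huu]; group
    have mem_cen : ∀ (t z : Y), t * z * t⁻¹ = z → z ∈ Subgroup.centralizer ({t} : Set Y) := by
      intro t z hz
      rw [Subgroup.mem_centralizer_singleton_iff]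
      have : t * z = z * t := by
        calc t * z = (t * z * t⁻¹) * t := by group
          _ = z * t := by rw [hz]
      exact this.symm
    refine ⟨(⟨c₁, mem_cen _ _ hc₁t⟩, ⟨c₂, mem_cen _ _ hc₂t⟩, ⟨u * f * u⁻¹, mem_cen _ _ hj3⟩), ?_⟩
    simp only
    rw [hke, hef, ← hu]; group
  choose Φ hΦ using key
  have hinj : Function.Injective Φ := by
    intro k k' hkk
    apply Subtype.ext
    rw [hΦ k, hΦ k', hkk]
  have h := Nat.card_le_card_of_injective Φ hinj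
  rw [Nat.card_prod, Nat.card_prod] at h
  calc n ≤ _ := h
    _ ≤ c * (c * c) := Nat.mul_le_mul hc1 (Nat.mul_le_mul hc2 hc3)
    _ = c ^ 3 := by ring

end Cfsg.Agent.Lib.Helper79.InvBound
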