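import Mathlib

/-!
# Centralizers in quotients and a Brauer–Fowler count (helper79)
-/

set_option autoImplicit false

namespace Cfsg.Agent.Lib.Helper79.InvBound

variable {Y : Type*} [Group Y] [Finite Y]

/-- `|C_{Y/N}(gN)| ≤ |C_Y(g)|` -/
theorem card_centralizer_quotient_le (N : Subgroup Y) [N.Normal] (g : Y) :
    Nat.card (Subgroup.centralizer ({(g : Y ⧸ N)} : Set (Y ⧸ N))) ≤
      Nat.card (Subgroup.centralizer ({g} : Set Y)) := by
  classical
  have := Fintype.ofFinite Y
  set H : Subgroup Y :=
    (Subgroup.centralizer ({(g : Y ⧸ N)} : Set (Y ⧸ N))).comap (QuotientGroup.mk' N) with hH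
  -- card H = card N * card C̄
  have hidx : H.index = (Subgroup.centralizer ({(g : Y ⧸ N)} : Set (Y ⧸ N))).index :=
    Subgroup.index_comap_of_surjective _ (QuotientGroup.mk'_surjective N)
  have h1 := Subgroup.card_mul_index H
  have h2 := Subgroup.card_mul_index (Subgroup.centralizer ({(g : Y ⧸ N)} : Set (Y ⧸ N)))
  have h3 := Subgroup.card_eq_card_quotient_mul_card_subgroup N
  have hcardH : Nat.card H =
      Nat.card (Subgroup.centralizer ({(g : Y ⧸ N)} : Set (Y ⧸ N))) * Nat.card N := by
    have hpos : 0 < H.index := Nat.pos_of_ne_zero (Subgroup.index_ne_zero_of_finite)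
    apply Nat.eq_of_mul_eq_mul_right hpos
    rw [h1, h3, ← h2, hidx]; ring
  -- the commutator map H → N
  have hmem : ∀ h : H, (h : Y) * g * (h : Y)⁻¹ * g⁻¹ ∈ N := by
    intro h
    have hh : (h : Y) ∈ (Subgroup.centralizer ({(g : Y ⧸ N)} : Set (Y ⧸ N))).comap
        (QuotientGroup.mk' N) := h.2
    rw [Subgroup.mem_comap, Subgroup.mem_centralizer_singleton_iff] at hh
    rw [← QuotientGroup.eq_one_iff]
    simp only [QuotientGroup.mk'_apply] at hh
    simp only [QuotientGroup.mk_mul, QuotientGroup.mk_inv]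
    rw [hh]; group
  let f : H → N := fun h => ⟨(h : Y) * g * (h : Y)⁻¹ * g⁻¹, hmem h⟩
  have hfib : ∀ b ∈ Finset.image f Finset.univ,
      (Finset.univ.filter (fun a => f a = b)).card ≤
        Nat.card (Subgroup.centralizer ({g} : Set Y)) := by
    intro b hb
    obtain ⟨h₀, -, rfl⟩ := Finset.mem_image.1 hb
    have hmem2 : ∀ a : {a : H // f a = f h₀},
        ((h₀ : Y)⁻¹ * (a.1 : Y)) ∈ Subgroup.centralizer ({g} : Set Y) := by
      intro a
      have ha := congrArg Subtype.val a.2
      simp only [f] at ha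
      rw [Subgroup.mem_centralizer_singleton_iff]
      have h5 : (a.1 : Y) * g * (a.1 : Y)⁻¹ = (h₀ : Y) * g * (h₀ : Y)⁻¹ := mul_right_cancel ha
      calc (h₀ : Y)⁻¹ * (a.1 : Y) * g
          = (h₀ : Y)⁻¹ * ((a.1 : Y) * g * (a.1 : Y)⁻¹) * (a.1 : Y) := by group
        _ = g * ((h₀ : Y)⁻¹ * (a.1 : Y)) := by rw [h5]; group
    let φ : {a : H // f a = f h₀} → Subgroup.centralizer ({g} : Set Y) :=
      fun a => ⟨_, hmem2 a⟩
    have hφ : Function.Injective φ := by
      intro a a' haa
      have := congrArg Subtype.val haa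
      simp only [φ] at this
      exact Subtype.ext (Subtype.ext (mul_left_cancel this))
    have := Nat.card_le_card_of_injective φ hφ
    rw [Nat.card_eq_fintype_card, Fintype.card_subtype] at this
    exact this
  have h4 := Finset.card_le_mul_card_image (f := f) Finset.univ _ hfib
  have h5 : (Finset.image f Finset.univ).card ≤ Nat.card N := by
    rw [Nat.card_eq_fintype_card]; exact Finset.card_le_univ _
  have h6 : Nat.card H ≤ Nat.card (Subgroup.centralizer ({g} : Set Y)) * Nat.card N := by
    rw [Nat.card_eq_fintype_card (α := H), ← Finset.card_univ]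
    exact h4.trans (Nat.mul_le_mul_left _ h5)
  rw [hcardH] at h6
  exact Nat.le_of_mul_le_mul_right h6 Nat.card_pos

/-- A Brauer–Fowler count: if `v` has square one, `|C(v)| ≤ c` and `2c² ≤ |Y|`, then some
non-identity element has at most `2c²` conjugates. -/
theorem exists_small_class (v : Y) (hv : v * v = 1) (c : ℕ)
    (hc : Nat.card (Subgroup.centralizer ({v} : Set Y)) ≤ c) (hY : 2 * c ^ 2 ≤ Nat.card Y) :
    ∃ x : Y, x ≠ 1 ∧ (Subgroup.centralizer ({x} : Set Y)).index ≤ 2 * c ^ 2 := by
  classical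
  have := Fintype.ofFinite Y
  by_contra hcon
  push Not at hcon
  -- the class of v
  set K : Finset Y := Finset.univ.image (fun g : Y => g * v * g⁻¹) with hK
  have hKsq : ∀ s ∈ K, s * s = 1 := by
    intro s hs
    obtain ⟨g, -, rfl⟩ := Finset.mem_image.1 hs
    calc g * v * g⁻¹ * (g * v * g⁻¹) = g * (v * v) * g⁻¹ := by group
      _ = 1 := by rw [hv]; group
  -- |Y| ≤ c |K|
  have hYK : Nat.card Y ≤ c * K.card := by
    have hfib : ∀ b ∈ Finset.image (fun g : Y => g * v * g⁻¹) Finset.univ,
        (Finset.univ.filter (fun a : Y => a * v * a⁻¹ = b)).card ≤ c := by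
      intro b hb
      obtain ⟨h₀, -, rfl⟩ := Finset.mem_image.1 hb
      refine le_trans ?_ hc
      have hmem2 : ∀ a : {a : Y // a * v * a⁻¹ = h₀ * v * h₀⁻¹},
          (h₀⁻¹ * a.1) ∈ Subgroup.centralizer ({v} : Set Y) := by
        intro a
        rw [Subgroup.mem_centralizer_singleton_iff]
        calc h₀⁻¹ * a.1 * v = h₀⁻¹ * (a.1 * v * a.1⁻¹) * a.1 := by group
          _ = v * (h₀⁻¹ * a.1) := by rw [a.2]; group
      let φ : {a : Y // a * v * a⁻¹ = h₀ * v * h₀⁻¹} → Subgroup.centralizer ({v} : Set Y) :=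
        fun a => ⟨_, hmem2 a⟩
      have hφ : Function.Injective φ := by
        intro a a' haa
        have := congrArg Subtype.val haa
        simp only [φ] at this
        exact Subtype.ext (mul_left_cancel this)
      have := Nat.card_le_card_of_injective φ hφ
      rw [Nat.card_eq_fintype_card, Fintype.card_subtype] at this
      exact this
    have := Finset.card_le_mul_card_image (f := fun g : Y => g * v * g⁻¹) Finset.univ _ hfib
    rw [Finset.card_univ, ← Nat.card_eq_fintype_card] at this
    exact this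
  -- counting pairs
  have hpairs : K.card * K.card =
      ∑ x : Y, ((K ×ˢ K).filter (fun st => st.1 * st.2 = x)).card := by
    rw [← Finset.card_product]
    exact Finset.card_eq_sum_card_fiberwise (fun _ _ => Finset.mem_univ _)
  have hfib1 : ((K ×ˢ K).filter (fun st => st.1 * st.2 = 1)).card ≤ K.card := by
    apply Finset.card_le_card_of_injOn (fun st => st.1)
    · intro st hst
      exact (Finset.mem_product.1 (Finset.mem_filter.1 hst).1).1
    · intro st hst st' hst' h
      have h1 := (Finset.mem_filter.1 hst).2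
      have h2 := (Finset.mem_filter.1 hst').2
      simp only at h
      refine Prod.ext h ?_
      have : st.1 * st.2 = st.1 * st'.2 := by rw [h1, h, h2]
      exact mul_left_cancel this
  have hfibx : ∀ x : Y, ((K ×ˢ K).filter (fun st => st.1 * st.2 = x)).card ≤
      Nat.card (Subgroup.centralizer ({x} : Set Y)) := by
    intro x
    rcases Finset.eq_empty_or_nonempty ((K ×ˢ K).filter (fun st => st.1 * st.2 = x)) with h | h
    · rw [h]; simp
    obtain ⟨st₀, hst₀⟩ := h
    have hinv : ∀ st ∈ (K ×ˢ K).filter (fun st => st.1 * st.2 = x), st.1 * x * st.1⁻¹ = x⁻¹ := by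
      intro st hst
      obtain ⟨h1, h2⟩ := Finset.mem_filter.1 hst
      obtain ⟨h3, h4⟩ := Finset.mem_product.1 h1
      have e1 := hKsq _ h3
      have e2 := hKsq _ h4
      have i1 : st.1⁻¹ = st.1 := inv_eq_of_mul_eq_one_left e1
      have i2 : st.2⁻¹ = st.2 := inv_eq_of_mul_eq_one_left e2
      rw [← h2, mul_inv_rev, i1, i2]
      calc st.1 * (st.1 * st.2) * st.1 = (st.1 * st.1) * st.2 * st.1 := by group
        _ = st.2 * st.1 := by rw [e1, one_mul]
    have hmem2 : ∀ a : {st // st ∈ (K ×ˢ K).filter (fun st => st.1 * st.2 = x)},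
        (st₀.1⁻¹ * a.1.1) ∈ Subgroup.centralizer ({x} : Set Y) := by
      intro a
      rw [Subgroup.mem_centralizer_singleton_iff]
      have e1 := hinv _ a.2
      have e2 := hinv _ hst₀
      calc st₀.1⁻¹ * a.1.1 * x = st₀.1⁻¹ * (a.1.1 * x * a.1.1⁻¹) * a.1.1 := by group
        _ = st₀.1⁻¹ * (st₀.1 * x * st₀.1⁻¹) * a.1.1 := by rw [e1, e2]
        _ = x * (st₀.1⁻¹ * a.1.1) := by group
    let φ : {st // st ∈ (K ×ˢ K).filter (fun st => st.1 * st.2 = x)} →
        Subgroup.centralizer ({x} : Set Y) := fun a => ⟨_, hmem2 a⟩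
    have hφ : Function.Injective φ := by
      intro a a' haa
      have := congrArg Subtype.val haa
      simp only [φ] at this
      have h1 : a.1.1 = a'.1.1 := mul_left_cancel this
      have h2 := (Finset.mem_filter.1 a.2).2
      have h3 := (Finset.mem_filter.1 a'.2).2
      apply Subtype.ext
      refine Prod.ext h1 ?_
      have : a.1.1 * a.1.2 = a.1.1 * a'.1.2 := by rw [h2, h1, h3]
      exact mul_left_cancel this
    have := Nat.card_le_card_of_injective φ hφ
    rw [Nat.card_eq_fintype_card, Fintype.card_coe] at this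
    exact this
  -- 2c² |C(x)| < |Y| for x ≠ 1
  have hsmall : ∀ x : Y, x ≠ 1 →
      2 * c ^ 2 * Nat.card (Subgroup.centralizer ({x} : Set Y)) ≤ Nat.card Y := by
    intro x hx
    have h1 := hcon x hx
    have h2 := Subgroup.card_mul_index (Subgroup.centralizer ({x} : Set Y))
    rw [← h2, mul_comm]
    exact Nat.mul_le_mul_left _ h1.le
  have hsum : 2 * c ^ 2 * (K.card * K.card) ≤
      2 * c ^ 2 * K.card + (Nat.card Y - 1) * Nat.card Y := by
    rw [hpairs, ← Finset.add_sum_erase _ _ (Finset.mem_univ (1 : Y)), mul_add]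
    apply Nat.add_le_add (Nat.mul_le_mul_left _ hfib1)
    rw [Finset.mul_sum]
    calc ∑ x ∈ Finset.univ.erase (1 : Y),
          2 * c ^ 2 * ((K ×ˢ K).filter (fun st => st.1 * st.2 = x)).card
        ≤ ∑ x ∈ Finset.univ.erase (1 : Y), Nat.card Y := by
          apply Finset.sum_le_sum
          intro x hx
          exact (Nat.mul_le_mul_left _ (hfibx x)).trans (hsmall x (Finset.ne_of_mem_erase hx))
      _ = (Nat.card Y - 1) * Nat.card Y := by
          rw [Finset.sum_const, Finset.card_erase_of_mem (Finset.mem_univ _), Finset.card_univ,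
            ← Nat.card_eq_fintype_card, smul_eq_mul]
  have hKle : K.card ≤ Nat.card Y := by
    rw [Nat.card_eq_fintype_card]; exact Finset.card_le_univ _
  have hYpos : 0 < Nat.card Y := Nat.card_pos
  -- arithmetic
  clear hpairs hfib1 hfibx hsmall hKsq hcon
  generalize Nat.card Y = y at *
  generalize K.card = k at *
  obtain ⟨y', rfl⟩ : ∃ y', y = y' + 1 := ⟨y - 1, by omega⟩
  simp only [Nat.add_sub_cancel] at hsum
  have h7 : (y' + 1) * (y' + 1) ≤ (c * k) * (c * k) := Nat.mul_le_mul hYK hYK
  have h8 : 2 * c ^ 2 * k ≤ 2 * c ^ 2 * (y' + 1) := Nat.mul_le_mul_left _ hKle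
  nlinarith

end Cfsg.Agent.Lib.Helper79.InvBound
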