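import Mathlib
import Cfsg.Agent.Lib.Helper79.InvBoundA
import Cfsg.Agent.Lib.Helper79.InvBoundB

/-!
# Groups with a four-group of involutions with small centralizers are small (helper79)

`exists_bound a c`: there is `F` such that every finite group `Y` whose order has 2-adic valuation
at most `a` and which has commuting `t₁, t₂` of square one with
`|C(t₁)|, |C(t₂)|, |C(t₁t₂)| ≤ c` satisfies `|Y| ≤ F`.
-/

set_option autoImplicit false

universe u

namespace Cfsg.Agent.Lib.Helper79.InvBound

section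

variable {Y : Type*} [Group Y] [Finite Y]

/-- an abelian normal subgroup of a group without normal subgroups of odd order is a 2-group -/
theorem card_abelian_normal_le
    (hno : ∀ L : Subgroup Y, L.Normal → Odd (Nat.card L) → L = ⊥)
    (Z : Subgroup Y) [hZn : Z.Normal] (hZ : ∀ a ∈ Z, ∀ b ∈ Z, a * b = b * a) :
    Nat.card Z ≤ 2 ^ (Nat.card Y).factorization 2 := by
  classical
  obtain ⟨k, m, hm, hkm⟩ := Nat.exists_eq_two_pow_mul_odd (n := Nat.card Z) Nat.card_pos.ne'
  let L : Subgroup Y :=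
    { carrier := {z | z ∈ Z ∧ z ^ m = 1}
      one_mem' := ⟨Z.one_mem, one_pow _⟩
      mul_mem' := by
        rintro a b ⟨ha, ha'⟩ ⟨hb, hb'⟩
        refine ⟨Z.mul_mem ha hb, ?_⟩
        have : Commute a b := hZ a ha b hb
        rw [this.mul_pow, ha', hb', one_mul]
      inv_mem' := by
        rintro a ⟨ha, ha'⟩
        exact ⟨Z.inv_mem ha, by rw [inv_pow, ha', inv_one]⟩ }
  have hLn : L.Normal := by
    constructor
    rintro z ⟨hz, hz'⟩ g
    exact ⟨hZn.conj_mem z hz g, by rw [conj_pow, hz']; group⟩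
  have hLodd : Odd (Nat.card L) := by
    rw [← Nat.not_even_iff_odd, even_iff_two_dvd]
    intro h2
    have : Fact (Nat.Prime 2) := ⟨Nat.prime_two⟩
    obtain ⟨z, hz⟩ := exists_prime_orderOf_dvd_card' (G := L) 2 h2
    have h1 : (z : Y) ^ m = 1 := z.2.2
    have h3 : orderOf (z : Y) = 2 := by rw [Subgroup.orderOf_coe, hz]
    have h4 : 2 ∣ m := by rw [← h3]; exact orderOf_dvd_of_pow_eq_one h1
    exact (Nat.not_even_iff_odd.2 hm) (even_iff_two_dvd.2 h4)
  have hL := hno L hLn hLodd
  have hp : IsPGroup 2 Z := by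
    intro z
    refine ⟨k, ?_⟩
    have h1 : ((z : Y) ^ 2 ^ k) ∈ L := by
      refine ⟨Z.pow_mem z.2 _, ?_⟩
      rw [← pow_mul, ← hkm]
      have h : (z ^ Nat.card Z : Z) = 1 := pow_card_eq_one'
      have h' := congrArg (Subgroup.subtype Z) h
      rw [map_pow, map_one] at h'
      exact h'
    rw [hL, Subgroup.mem_bot] at h1
    exact Subtype.ext (by simpa using h1)
  have : Fact (Nat.Prime 2) := ⟨Nat.prime_two⟩
  obtain ⟨j, hj⟩ := IsPGroup.iff_card.1 hp
  rw [hj]
  apply Nat.pow_le_pow_right (by norm_num)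
  rw [← Nat.Prime.pow_dvd_iff_le_factorization Nat.prime_two Nat.card_pos.ne', ← hj]
  exact Subgroup.card_subgroup_dvd_card Z

/-- a non-identity element with few conjugates gives a small non-trivial normal subgroup -/
theorem exists_bounded_normal
    (hno : ∀ L : Subgroup Y, L.Normal → Odd (Nat.card L) → L = ⊥)
    (x : Y) (hx : x ≠ 1) (m : ℕ) (hm : (Subgroup.centralizer ({x} : Set Y)).index ≤ m) :
    ∃ X : Subgroup Y, X.Normal ∧ X ≠ ⊥ ∧
      Nat.card X ≤ 2 ^ (Nat.card Y).factorization 2 * m.factorial := by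
  classical
  set H := Subgroup.centralizer ({x} : Set Y) with hH
  set N := H.normalCore with hN
  set X := Subgroup.normalClosure ({x} : Set Y) with hX
  have hNn : N.Normal := Subgroup.normalCore_normal H
  have hXn : X.Normal := Subgroup.normalClosure_normal
  have hidx : N.index ≤ m.factorial := by
    rw [hN, Subgroup.normalCore_eq_ker, Subgroup.index_ker]
    calc Nat.card (MulAction.toPermHom Y (Y ⧸ H)).range
        ≤ Nat.card (Equiv.Perm (Y ⧸ H)) :=
          Nat.card_le_card_of_injective _ Subtype.val_injective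
      _ = (Nat.card (Y ⧸ H)).factorial := Nat.card_perm
      _ ≤ m.factorial := Nat.factorial_le hm
  have hXN : X ≤ Subgroup.centralizer (N : Set Y) := by
    apply Subgroup.normalClosure_le_normal
    intro z hz
    rw [Set.mem_singleton_iff] at hz
    subst hz
    rw [SetLike.mem_coe, Subgroup.mem_centralizer_iff]
    intro n hn
    have h1 : n ∈ H := Subgroup.normalCore_le H hn
    rw [hH, Subgroup.mem_centralizer_singleton_iff] at h1
    exact h1
  have hZn : (X ⊓ N).Normal := inferInstance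
  have hZ : ∀ a ∈ X ⊓ N, ∀ b ∈ X ⊓ N, a * b = b * a := by
    intro a ha b hb
    have h1 := hXN ha.1
    rw [Subgroup.mem_centralizer_iff] at h1
    exact (h1 b hb.2).symm
  have hcardZ := card_abelian_normal_le hno (X ⊓ N) hZ
  refine ⟨X, hXn, ?_, ?_⟩
  · intro h
    have : x ∈ X := Subgroup.subset_normalClosure (Set.mem_singleton x)
    rw [h, Subgroup.mem_bot] at this
    exact hx this
  · have h1 := Subgroup.card_mul_index (N.subgroupOf X)
    have h2 : Nat.card (N.subgroupOf X) = Nat.card (X ⊓ N : Subgroup Y) := by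
      rw [← Subgroup.inf_subgroupOf_right N X, inf_comm]
      exact Nat.card_congr (Subgroup.subgroupOfEquivOfLe inf_le_left).toEquiv
    have h3 : (N.subgroupOf X).index ≤ m.factorial :=
      (Nat.le_of_dvd (Nat.pos_of_ne_zero Subgroup.index_ne_zero_of_finite)
        (Subgroup.relIndex_dvd_index_of_normal N X)).trans hidx
    rw [← h1, h2]
    exact Nat.mul_le_mul hcardZ h3

/-- a maximal normal subgroup of odd order -/
theorem exists_max_odd_normal :
    ∃ K : Subgroup Y, K.Normal ∧ Odd (Nat.card K) ∧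
      ∀ L : Subgroup Y, L.Normal → Odd (Nat.card L) → Nat.card L ≤ Nat.card K := by
  classical
  have hne : Nonempty {K : Subgroup Y // K.Normal ∧ Odd (Nat.card K)} :=
    ⟨⟨⊥, inferInstance, by simp⟩⟩
  obtain ⟨K, hK⟩ := Finite.exists_max
    (fun K : {K : Subgroup Y // K.Normal ∧ Odd (Nat.card K)} => Nat.card K.1)
  exact ⟨K.1, K.2.1, K.2.2, fun L h1 h2 => hK ⟨L, h1, h2⟩⟩

theorem card_comap_mk' (K : Subgroup Y) [K.Normal] (L : Subgroup (Y ⧸ K)) :
    Nat.card (L.comap (QuotientGroup.mk' K)) = Nat.card L * Nat.card K := by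
  have hidx : (L.comap (QuotientGroup.mk' K)).index = L.index :=
    Subgroup.index_comap_of_surjective _ (QuotientGroup.mk'_surjective K)
  have h1 := Subgroup.card_mul_index (L.comap (QuotientGroup.mk' K))
  have h2 := Subgroup.card_mul_index L
  have h3 := Subgroup.card_eq_card_quotient_mul_card_subgroup K
  have hpos : 0 < L.index := Nat.pos_of_ne_zero (Subgroup.index_ne_zero_of_finite)
  apply Nat.eq_of_mul_eq_mul_right hpos
  rw [← hidx, h1, h3, ← h2, hidx]; ring

end

/-- **The bound.** -/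
theorem exists_bound (a c : ℕ) : ∃ F : ℕ, ∀ (Y : Type u) [Group Y] [Finite Y] (t₁ t₂ : Y),
    t₁ * t₁ = 1 → t₂ * t₂ = 1 → t₁ * t₂ = t₂ * t₁ →
    Nat.card (Subgroup.centralizer ({t₁} : Set Y)) ≤ c →
    Nat.card (Subgroup.centralizer ({t₂} : Set Y)) ≤ c →
    Nat.card (Subgroup.centralizer ({t₁ * t₂} : Set Y)) ≤ c →
    (Nat.card Y).factorization 2 ≤ a → Nat.card Y ≤ F := by
  induction a with
  | zero =>
    refine ⟨c ^ 3, fun Y _ _ t₁ t₂ h1 h2 h12 hc1 hc2 hc3 ha => ?_⟩
    have hodd : Odd (Nat.card Y) := by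
      rw [← Nat.not_even_iff_odd, even_iff_two_dvd]
      intro h
      have := (Nat.Prime.pow_dvd_iff_le_factorization (k := 1) Nat.prime_two
        (Nat.card_pos (α := Y)).ne').1 (by simpa using h)
      omega
    have h := card_le_of_odd (⊤ : Subgroup Y) (by rwa [Subgroup.card_top]) t₁ t₂ h1 h2 h12 c
      hc1 hc2 hc3
    rwa [Subgroup.card_top] at h
  | succ a ih =>
    obtain ⟨F, hF⟩ := ih
    refine ⟨(2 * c ^ 2 + F * (2 ^ (a + 1) * (2 * c ^ 2).factorial)) * c ^ 3,
      fun Y _ _ t₁ t₂ h1 h2 h12 hc1 hc2 hc3 ha => ?_⟩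
    obtain ⟨K, hKn, hKodd, hKmax⟩ := exists_max_odd_normal (Y := Y)
    have hKc := card_le_of_odd K hKodd t₁ t₂ h1 h2 h12 c hc1 hc2 hc3
    have hcard := Subgroup.card_eq_card_quotient_mul_card_subgroup K
    rw [hcard]
    refine Nat.mul_le_mul ?_ hKc
    -- the quotient
    have hno : ∀ L : Subgroup (Y ⧸ K), L.Normal → Odd (Nat.card L) → L = ⊥ := by
      intro L hL hLodd
      have h3 := hKmax (L.comap (QuotientGroup.mk' K)) inferInstance
        (by rw [card_comap_mk']; exact hLodd.mul hKodd)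
      rw [card_comap_mk'] at h3
      have h4 : Nat.card L ≤ 1 := by
        have hpos : 0 < Nat.card K := Nat.card_pos
        nlinarith
      exact (Subgroup.card_le_one_iff_eq_bot L).1 h4
    have hq1 : Nat.card (Subgroup.centralizer ({(t₁ : Y ⧸ K)} : Set (Y ⧸ K))) ≤ c :=
      (card_centralizer_quotient_le K t₁).trans hc1
    have hq2 : Nat.card (Subgroup.centralizer ({(t₂ : Y ⧸ K)} : Set (Y ⧸ K))) ≤ c :=
      (card_centralizer_quotient_le K t₂).trans hc2
    have hq3 : Nat.card (Subgroup.centralizer ({((t₁ * t₂ : Y) : Y ⧸ K)} : Set (Y ⧸ K))) ≤ c :=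
      (card_centralizer_quotient_le K (t₁ * t₂)).trans hc3
    have hval : (Nat.card (Y ⧸ K)).factorization 2 ≤ a + 1 := by
      refine le_trans ?_ ha
      have hdvd : Nat.card (Y ⧸ K) ∣ Nat.card Y := ⟨_, hcard⟩
      exact (Nat.factorization_le_iff_dvd Nat.card_pos.ne' Nat.card_pos.ne').2 hdvd 2
    by_cases hbig : 2 * c ^ 2 ≤ Nat.card (Y ⧸ K)
    · obtain ⟨x, hx, hxi⟩ := exists_small_class (t₁ : Y ⧸ K)
        (by rw [← QuotientGroup.mk_mul, h1]; rfl) c hq1 hbig
      obtain ⟨X, hXn, hXne, hXc⟩ := exists_bounded_normal hno x hx _ hxi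
      have hXeven : 2 ∣ Nat.card X := by
        by_contra h
        exact hXne (hno X hXn (Nat.not_even_iff_odd.1 (fun h' => h (even_iff_two_dvd.1 h'))))
      have hcard2 := Subgroup.card_eq_card_quotient_mul_card_subgroup X
      have hval2 : (Nat.card ((Y ⧸ K) ⧸ X)).factorization 2 ≤ a := by
        have h5 := congrArg (fun n => n.factorization 2) hcard2
        rw [Nat.factorization_mul Nat.card_pos.ne' Nat.card_pos.ne', Finsupp.add_apply] at h5
        have h6 : 1 ≤ (Nat.card X).factorization 2 :=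
          (Nat.Prime.pow_dvd_iff_le_factorization (k := 1) Nat.prime_two Nat.card_pos.ne').1
            (by simpa using hXeven)
        omega
      have h7 := hF ((Y ⧸ K) ⧸ X) (((t₁ : Y ⧸ K) : (Y ⧸ K) ⧸ X)) (((t₂ : Y ⧸ K) : (Y ⧸ K) ⧸ X))
        (by rw [← QuotientGroup.mk_mul, ← QuotientGroup.mk_mul, h1]; rfl)
        (by rw [← QuotientGroup.mk_mul, ← QuotientGroup.mk_mul, h2]; rfl)
        (by rw [← QuotientGroup.mk_mul, ← QuotientGroup.mk_mul, ← QuotientGroup.mk_mul,
          ← QuotientGroup.mk_mul, h12])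
        ((card_centralizer_quotient_le X _).trans hq1)
        ((card_centralizer_quotient_le X _).trans hq2)
        (by
          rw [← QuotientGroup.mk_mul, ← QuotientGroup.mk_mul]
          exact (card_centralizer_quotient_le X _).trans hq3)
        hval2
      rw [hcard2]
      have h8 : Nat.card X ≤ 2 ^ (a + 1) * (2 * c ^ 2).factorial :=
        hXc.trans (Nat.mul_le_mul_right _ (Nat.pow_le_pow_right (by norm_num) hval))
      exact (Nat.mul_le_mul h7 h8).trans (Nat.le_add_left _ _)
    · push Not at hbig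
      exact hbig.le.trans (Nat.le_add_right _ _)

end Cfsg.Agent.Lib.Helper79.InvBound
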