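import Mathlib

/-!
# The isotypic idempotents of a finite abelian group in a complex algebra
-/

namespace Cfsg.Agent.Lib.Helper79.Jordan

open scoped BigOperators

section dual

variable {H : Type*} [CommGroup H] [Finite H]

lemma enoughRoots : HasEnoughRootsOfUnity ℂ (Monoid.exponent H) := by
  have : NeZero (Monoid.exponent H) := ⟨Monoid.exponent_ne_zero_of_finite⟩
  infer_instance

lemma finite_dual : Finite (H →* ℂˣ) := by
  have := enoughRoots (H := H)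
  obtain ⟨e⟩ := CommGroup.monoidHom_mulEquiv_of_hasEnoughRootsOfUnity H ℂ
  exact Finite.of_equiv H e.symm.toEquiv

lemma card_dual : Nat.card (H →* ℂˣ) = Nat.card H := by
  have := enoughRoots (H := H)
  exact CommGroup.card_monoidHom_of_hasEnoughRootsOfUnity H ℂ

lemma sum_dual_apply [Fintype (H →* ℂˣ)] (a : H) (ha : a ≠ 1) :
    ∑ φ : H →* ℂˣ, ((φ a : ℂˣ) : ℂ) = 0 := by
  have := enoughRoots (H := H)
  obtain ⟨ψ, hψ⟩ := CommGroup.exists_apply_ne_one_of_hasEnoughRootsOfUnity H ℂ ha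
  have h1 : ∑ φ : H →* ℂˣ, ((φ a : ℂˣ) : ℂ) = ∑ φ : H →* ℂˣ, (((ψ * φ) a : ℂˣ) : ℂ) :=
    (Equiv.sum_comp (Equiv.mulLeft ψ) (fun φ : H →* ℂˣ => ((φ a : ℂˣ) : ℂ))).symm
  have h2 : ∑ φ : H →* ℂˣ, (((ψ * φ) a : ℂˣ) : ℂ)
      = ((ψ a : ℂˣ) : ℂ) * ∑ φ : H →* ℂˣ, ((φ a : ℂˣ) : ℂ) := by
    rw [Finset.mul_sum]
    apply Finset.sum_congr rfl
    intro φ _
    simp
  rw [h2] at h1
  have h3 : (((ψ a : ℂˣ) : ℂ) - 1) * ∑ φ : H →* ℂˣ, ((φ a : ℂˣ) : ℂ) = 0 := by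
    rw [sub_mul, one_mul, ← h1, sub_self]
  rcases mul_eq_zero.mp h3 with h | h
  · exfalso
    apply hψ
    have : ((ψ a : ℂˣ) : ℂ) = 1 := sub_eq_zero.mp h
    exact Units.ext this
  · exact h

lemma sum_apply [Fintype H] (φ : H →* ℂˣ) (hφ : φ ≠ 1) :
    ∑ h : H, ((φ h : ℂˣ) : ℂ) = 0 := by
  obtain ⟨b, hb⟩ : ∃ b, φ b ≠ 1 := by
    by_contra hne
    push Not at hne
    exact hφ (MonoidHom.ext hne)
  have h1 : ∑ h : H, ((φ h : ℂˣ) : ℂ) = ∑ h : H, ((φ (b * h) : ℂˣ) : ℂ) :=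
    (Equiv.sum_comp (Equiv.mulLeft b) (fun h : H => ((φ h : ℂˣ) : ℂ))).symm
  have h2 : ∑ h : H, ((φ (b * h) : ℂˣ) : ℂ) = ((φ b : ℂˣ) : ℂ) * ∑ h : H, ((φ h : ℂˣ) : ℂ) := by
    rw [Finset.mul_sum]
    apply Finset.sum_congr rfl
    intro h _
    simp
  rw [h2] at h1
  have h3 : (((φ b : ℂˣ) : ℂ) - 1) * ∑ h : H, ((φ h : ℂˣ) : ℂ) = 0 := by
    rw [sub_mul, one_mul, ← h1, sub_self]
  rcases mul_eq_zero.mp h3 with h | h
  · exfalso
    apply hb
    have : ((φ b : ℂˣ) : ℂ) = 1 := sub_eq_zero.mp h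
    exact Units.ext this
  · exact h

variable {𝒜 : Type*} [Ring 𝒜] [Algebra ℂ 𝒜]

/-- the `φ`-isotypic idempotent -/
noncomputable def idem [Fintype H] (U : H →* 𝒜) (φ : H →* ℂˣ) : 𝒜 :=
  ((Nat.card H : ℂ)⁻¹) • ∑ h : H, ((φ h⁻¹ : ℂˣ) : ℂ) • U h

lemma mul_idem [Fintype H] (U : H →* 𝒜) (φ : H →* ℂˣ) (g : H) :
    U g * idem U φ = ((φ g : ℂˣ) : ℂ) • idem U φ := by
  unfold idem
  rw [mul_smul_comm, smul_comm]
  congr 1
  rw [Finset.mul_sum, Finset.smul_sum]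
  have h1 : ∑ h : H, U g * (((φ h⁻¹ : ℂˣ) : ℂ) • U h)
      = ∑ h : H, ((φ (g⁻¹ * h)⁻¹ : ℂˣ) : ℂ) • U h := by
    rw [← Equiv.sum_comp (Equiv.mulLeft g) (fun h : H => ((φ (g⁻¹ * h)⁻¹ : ℂˣ) : ℂ) • U h)]
    apply Finset.sum_congr rfl
    intro h _
    simp only [Equiv.coe_mulLeft, inv_mul_cancel_left, map_mul, mul_smul_comm]
  rw [h1]
  apply Finset.sum_congr rfl
  intro h _
  rw [smul_smul]
  congr 1
  simp [mul_comm]

lemma idem_mul_idem [Fintype H] (U : H →* 𝒜) (φ ψ : H →* ℂˣ) :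
    idem U φ * idem U ψ = if φ = ψ then idem U φ else 0 := by
  have hN : (Nat.card H : ℂ) ≠ 0 := by
    exact_mod_cast (Nat.card_pos (α := H)).ne'
  have h1 : idem U φ * idem U ψ
      = ((Nat.card H : ℂ)⁻¹ * ∑ h : H, (((φ⁻¹ * ψ) h : ℂˣ) : ℂ)) • idem U ψ := by
    conv_lhs => unfold idem
    rw [smul_mul_assoc, Finset.sum_mul, mul_smul, Finset.sum_smul]
    congr 1
    apply Finset.sum_congr rfl
    intro h _
    rw [smul_mul_assoc]
    have := mul_idem U ψ h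
    unfold idem at this ⊢
    rw [this, smul_smul]
    congr 1
    simp
  rw [h1]
  split_ifs with hφ
  · subst hφ
    have : ∑ h : H, (((φ⁻¹ * φ) h : ℂˣ) : ℂ) = Nat.card H := by
      simp [Nat.card_eq_fintype_card]
    rw [this, inv_mul_cancel₀ hN, one_smul]
  · have hne : φ⁻¹ * ψ ≠ 1 := by
      intro h
      apply hφ
      exact (inv_mul_eq_one.mp h)
    rw [sum_apply _ hne, mul_zero, zero_smul]

lemma sum_idem [Fintype H] [Fintype (H →* ℂˣ)] (U : H →* 𝒜) :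
    ∑ φ : H →* ℂˣ, idem U φ = 1 := by
  classical
  have hN : (Nat.card H : ℂ) ≠ 0 := by
    exact_mod_cast (Nat.card_pos (α := H)).ne'
  unfold idem
  rw [← Finset.smul_sum, Finset.sum_comm]
  have h1 : ∀ h : H, ∑ φ : H →* ℂˣ, ((φ h⁻¹ : ℂˣ) : ℂ) • U h
      = if h = 1 then (Nat.card H : ℂ) • (1 : 𝒜) else 0 := by
    intro h
    rw [← Finset.sum_smul]
    split_ifs with hh
    · subst hh
      have : ∑ φ : H →* ℂˣ, ((φ (1 : H)⁻¹ : ℂˣ) : ℂ) = Nat.card H := by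
        simp only [inv_one, map_one, Units.val_one, Finset.sum_const, Finset.card_univ,
          nsmul_eq_mul, mul_one]
        rw [← card_dual (H := H), Nat.card_eq_fintype_card]
      rw [this, map_one]
    · rw [sum_dual_apply h⁻¹ (by simpa using hh), zero_smul]
  rw [Finset.sum_congr rfl (fun h _ => h1 h), Finset.sum_ite_eq' Finset.univ (1 : H)]
  simp only [Finset.mem_univ, if_true]
  rw [smul_smul, inv_mul_cancel₀ hN, one_smul]

lemma map_eq_sum_idem [Fintype H] [Fintype (H →* ℂˣ)] (U : H →* 𝒜) (g : H) :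
    U g = ∑ φ : H →* ℂˣ, ((φ g : ℂˣ) : ℂ) • idem U φ := by
  calc U g = U g * ∑ φ : H →* ℂˣ, idem U φ := by rw [sum_idem, mul_one]
    _ = _ := by
      rw [Finset.mul_sum]
      exact Finset.sum_congr rfl (fun φ _ => mul_idem U φ g)

end dual

section orth

variable {ι : Type*} [Fintype ι] [DecidableEq ι] {𝒜 : Type*} [Ring 𝒜] [Algebra ℂ 𝒜]

/-- spectrum of a combination of orthogonal idempotents -/
lemma spectrum_sum_subset (e : ι → 𝒜) (he : ∀ i j, e i * e j = if i = j then e i else 0)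
    (h1 : ∑ i, e i = 1) (a : ι → ℂ) :
    spectrum ℂ (∑ i, a i • e i) ⊆ {z | ∃ i, e i ≠ 0 ∧ z = a i} := by
  classical
  intro μ hμ
  by_contra hne
  simp only [Set.mem_ofPred_eq, not_exists, not_and] at hne
  rw [spectrum.mem_iff] at hμ
  apply hμ
  have hT : algebraMap ℂ 𝒜 μ - ∑ i, a i • e i = ∑ i, (μ - a i) • e i := by
    simp only [sub_smul, Finset.sum_sub_distrib]
    rw [← Finset.smul_sum, h1, Algebra.algebraMap_eq_smul_one]
  rw [hT]
  have hprod : ∀ b c : ι → ℂ, (∑ i, b i • e i) * (∑ i, c i • e i) = ∑ i, (b i * c i) • e i := by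
    intro b c
    rw [Finset.sum_mul]
    apply Finset.sum_congr rfl
    intro i _
    rw [Finset.mul_sum]
    have : ∀ j, b i • e i * c j • e j = if i = j then (b i * c i) • e i else 0 := by
      intro j
      rw [smul_mul_smul_comm, he]
      split_ifs with hij
      · subst hij; rfl
      · rw [smul_zero]
    rw [Finset.sum_congr rfl (fun j _ => this j), Finset.sum_ite_eq Finset.univ i]
    simp
  have hone : ∀ i, ((μ - a i) * (μ - a i)⁻¹) • e i = e i := by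
    intro i
    by_cases hi : e i = 0
    · rw [hi, smul_zero]
    · have : μ - a i ≠ 0 := sub_ne_zero.mpr (hne i hi)
      rw [mul_inv_cancel₀ this, one_smul]
  refine ⟨⟨∑ i, (μ - a i) • e i, ∑ i, (μ - a i)⁻¹ • e i, ?_, ?_⟩, rfl⟩
  · rw [hprod, Finset.sum_congr rfl (fun i _ => hone i), h1]
  · rw [hprod]
    have : ∀ i, ((μ - a i)⁻¹ * (μ - a i)) • e i = e i := by
      intro i; rw [mul_comm]; exact hone i
    rw [Finset.sum_congr rfl (fun i _ => this i), h1]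

end orth

end Cfsg.Agent.Lib.Helper79.Jordan
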