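import Mathlib

/-!
# Commutators of group elements close to a scalar, in a normed algebra

`U : G →* 𝒜` a homomorphism of a finite group into a complete normed `ℂ`-algebra with
`‖U g‖ ≤ 1`, injective at `1`.  Two elements whose images are at distance `< 1/2` from the same
scalar commute.
-/

namespace Cfsg.Agent.Lib.Helper79.Jordan

variable {𝒜 : Type*} [NormedRing 𝒜] [NormedAlgebra ℂ 𝒜] {G : Type*} [Group G]

/-- the commutator used here -/
def cm (x y : G) : G := x⁻¹ * y * x * y⁻¹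

lemma cm_eq_one_iff (x y : G) : cm x y = 1 ↔ x * y = y * x := by
  unfold cm
  constructor
  · intro h
    have h1 : x⁻¹ * y * x = y := by
      have := congrArg (· * y) h
      simpa using this
    have := congrArg (x * ·) h1
    simpa [mul_assoc] using this.symm
  · intro h
    have : x⁻¹ * y * x = y := by
      rw [mul_assoc, ← h, ← mul_assoc, inv_mul_cancel, one_mul]
    rw [this, mul_inv_cancel]

lemma norm_cm_sub_one_le (U : G →* 𝒜) (hU : ∀ g, ‖U g‖ ≤ 1) (x y : G) (c d : ℂ) :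
    ‖U (cm x y) - 1‖ ≤ 2 * ‖U x - algebraMap ℂ 𝒜 c‖ * ‖U y - algebraMap ℂ 𝒜 d‖ := by
  set a := U x - algebraMap ℂ 𝒜 c with ha
  set b := U y - algebraMap ℂ 𝒜 d with hb
  have hxx : U x⁻¹ * U x = 1 := by rw [← map_mul, inv_mul_cancel, map_one]
  have hyy : U y * U y⁻¹ = 1 := by rw [← map_mul, mul_inv_cancel, map_one]
  have h1 : U (cm x y) - 1 = U x⁻¹ * (b * a - a * b) * U y⁻¹ := by
    have h2 : b * a - a * b = U y * U x - U x * U y := by
      rw [ha, hb]
      have e1 := Algebra.commutes c (U y)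
      have e2 := Algebra.commutes d (U x)
      have e3 := Algebra.commutes c (algebraMap ℂ 𝒜 d)
      simp only [sub_mul, mul_sub]
      rw [e1, ← e2, e3]
      abel
    rw [h2]
    unfold cm
    simp only [map_mul, mul_sub, sub_mul]
    congr 1
    · simp only [mul_assoc]
    · calc (1 : 𝒜) = (U x⁻¹ * U x) * (U y * U y⁻¹) := by rw [hxx, hyy, one_mul]
        _ = _ := by simp only [mul_assoc]
  rw [h1]
  have h3 : ‖b * a - a * b‖ ≤ 2 * ‖a‖ * ‖b‖ := by
    calc ‖b * a - a * b‖ ≤ ‖b * a‖ + ‖a * b‖ := norm_sub_le _ _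
      _ ≤ ‖b‖ * ‖a‖ + ‖a‖ * ‖b‖ := add_le_add (norm_mul_le _ _) (norm_mul_le _ _)
      _ = 2 * ‖a‖ * ‖b‖ := by ring
  calc ‖U x⁻¹ * (b * a - a * b) * U y⁻¹‖ ≤ ‖U x⁻¹ * (b * a - a * b)‖ * ‖U y⁻¹‖ := norm_mul_le _ _
    _ ≤ (‖U x⁻¹‖ * ‖b * a - a * b‖) * ‖U y⁻¹‖ :=
        mul_le_mul_of_nonneg_right (norm_mul_le _ _) (norm_nonneg _)
    _ ≤ (1 * ‖b * a - a * b‖) * 1 := by
        apply mul_le_mul _ (hU _) (norm_nonneg _) (by positivity)
        exact mul_le_mul_of_nonneg_right (hU _) (norm_nonneg _)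
    _ = ‖b * a - a * b‖ := by ring
    _ ≤ _ := h3

lemma cm_pow_of_commute (x y : G) (h : Commute x (cm x y)) (k : ℕ) :
    cm (x ^ k) y = (cm x y) ^ k := by
  have h1 : x * cm x y = y * x * y⁻¹ := by
    unfold cm; group
  have h2 : (x * cm x y) ^ k = x ^ k * (cm x y) ^ k := h.mul_pow k
  have h3 : (y * x * y⁻¹) ^ k = y * x ^ k * y⁻¹ := conj_pow
  rw [h1, h3] at h2
  have : cm (x ^ k) y = (x ^ k)⁻¹ * (y * x ^ k * y⁻¹) := by
    unfold cm; group
  rw [this, h2]; group

variable [CompleteSpace 𝒜]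

/-- If `x` commutes with `[x,y]` and `U y` is within `< 1/2` of a scalar, then `[x,y] = 1`. -/
lemma cm_eq_one_of_commute [Finite G] (U : G →* 𝒜) (hU : ∀ g, ‖U g‖ ≤ 1)
    (hinj : ∀ g, U g = 1 → g = 1) (x y : G) (h : Commute x (cm x y)) (d : ℂ)
    (hy : ‖U y - algebraMap ℂ 𝒜 d‖ < 1 / 2) : cm x y = 1 := by
  set w := cm x y with hw
  set t := 2 * ‖U y - algebraMap ℂ 𝒜 d‖ with ht
  have ht1 : t < 1 := by rw [ht]; linarith
  have hk : ∀ k : ℕ, ‖U w ^ k - 1‖ ≤ t := by
    intro k
    rw [← map_pow, hw, ← cm_pow_of_commute x y h k]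
    have := norm_cm_sub_one_le U hU (x ^ k) y 0 d
    rw [map_zero, sub_zero] at this
    calc _ ≤ 2 * ‖U (x ^ k)‖ * ‖U y - algebraMap ℂ 𝒜 d‖ := this
      _ ≤ 2 * 1 * ‖U y - algebraMap ℂ 𝒜 d‖ := by
          apply mul_le_mul_of_nonneg_right _ (norm_nonneg _)
          exact mul_le_mul_of_nonneg_left (hU _) (by norm_num)
      _ = t := by rw [ht]; ring
  set n := orderOf w with hn
  have hn0 : 0 < n := orderOf_pos w
  have hnC : (n : ℂ) ≠ 0 := by exact_mod_cast hn0.ne'
  set S : 𝒜 := ∑ k ∈ Finset.range n, U w ^ k with hS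
  have hwS : U w * S = S := by
    rw [hS, Finset.mul_sum]
    have e1 : ∑ k ∈ Finset.range n, U w * U w ^ k = ∑ k ∈ Finset.range n, U w ^ (k + 1) := by
      apply Finset.sum_congr rfl; intro k _; rw [pow_succ']
    rw [e1]
    have e2 := Finset.sum_range_succ (fun k => U w ^ k) n
    have e3 := Finset.sum_range_succ' (fun k => U w ^ k) n
    have e4 : U w ^ n = 1 := by rw [← map_pow, hn, pow_orderOf_eq_one, map_one]
    rw [e4] at e2
    rw [e2, pow_zero] at e3
    exact (add_right_cancel e3).symm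
  set E : 𝒜 := ((n : ℂ)⁻¹) • S with hE
  have hwE : U w * E = E := by rw [hE, mul_smul_comm, hwS]
  have hE1 : ‖1 - E‖ ≤ t := by
    have e1 : 1 - E = ((n : ℂ)⁻¹) • ∑ k ∈ Finset.range n, (1 - U w ^ k) := by
      rw [Finset.sum_sub_distrib, smul_sub, ← hS, ← hE]
      congr 1
      rw [Finset.sum_const, Finset.card_range, ← Nat.cast_smul_eq_nsmul ℂ, smul_smul,
        inv_mul_cancel₀ hnC, one_smul]
    rw [e1, norm_smul]
    have e2 : ‖∑ k ∈ Finset.range n, (1 - U w ^ k)‖ ≤ n * t := by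
      calc _ ≤ ∑ k ∈ Finset.range n, ‖1 - U w ^ k‖ := norm_sum_le _ _
        _ ≤ ∑ _k ∈ Finset.range n, t := by
            apply Finset.sum_le_sum; intro k _; rw [norm_sub_rev]; exact hk k
        _ = n * t := by rw [Finset.sum_const, Finset.card_range, nsmul_eq_mul]
    have e3 : ‖((n : ℂ)⁻¹)‖ = (n : ℝ)⁻¹ := by
      rw [norm_inv, Complex.norm_natCast]
    rw [e3]
    have hnR : (0 : ℝ) < n := by exact_mod_cast hn0
    calc (n : ℝ)⁻¹ * _ ≤ (n : ℝ)⁻¹ * (n * t) := by
          apply mul_le_mul_of_nonneg_left e2 (by positivity)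
      _ = t := by field_simp
  have hEu : IsUnit E := by
    have := isUnit_one_sub_of_norm_lt_one (x := 1 - E) (lt_of_le_of_lt hE1 ht1)
    simpa using this
  have : U w = 1 := by
    obtain ⟨u, hu⟩ := hEu
    have h2 : U w * (u : 𝒜) = 1 * u := by rw [hu, one_mul, hwE]
    exact u.isUnit.mul_right_cancel h2
  exact hinj w this

/-- Two elements whose images are within `< 1/2` of the same scalar commute. -/
theorem commute_of_close [Finite G] (U : G →* 𝒜) (hU : ∀ g, ‖U g‖ ≤ 1)
    (hinj : ∀ g, U g = 1 → g = 1) (c : ℂ) (x y : G)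
    (hx : ‖U x - algebraMap ℂ 𝒜 c‖ < 1 / 2) (hy : ‖U y - algebraMap ℂ 𝒜 c‖ < 1 / 2) :
    x * y = y * x := by
  set rx := ‖U x - algebraMap ℂ 𝒜 c‖ with hrx
  set ry := ‖U y - algebraMap ℂ 𝒜 c‖ with hry
  have hrx0 : 0 ≤ rx := norm_nonneg _
  have hry0 : 0 ≤ ry := norm_nonneg _
  let Y : ℕ → G := fun k => Nat.rec y (fun _ z => cm x z) k
  have hY0 : Y 0 = y := rfl
  have hYs : ∀ k, Y (k + 1) = cm x (Y k) := fun k => rfl
  let a : ℕ → ℝ := fun k => ‖U (Y (k + 1)) - 1‖
  have ha0 : a 0 < 1 / 2 := by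
    have := norm_cm_sub_one_le U hU x y c c
    change ‖U (cm x y) - 1‖ < 1 / 2
    calc _ ≤ 2 * rx * ry := this
      _ < 1 / 2 := by nlinarith
  have has : ∀ k, a (k + 1) ≤ 2 * rx * a k := by
    intro k
    have := norm_cm_sub_one_le U hU x (Y (k + 1)) c 1
    rw [map_one] at this
    exact this
  have hale : ∀ k, a k < 1 / 2 := by
    intro k
    induction k with
    | zero => exact ha0
    | succ k ih =>
      have h0 : 0 ≤ a k := norm_nonneg _
      calc a (k + 1) ≤ 2 * rx * a k := has k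
        _ ≤ 1 * a k := by apply mul_le_mul_of_nonneg_right _ h0; linarith
        _ < 1 / 2 := by linarith
  -- some `Y (k+1)` is trivial
  have hex : ∃ k, Y (k + 1) = 1 := by
    by_contra hne
    push_neg at hne
    have hpos : ∀ k, 0 < a k := by
      intro k
      apply norm_pos_iff.mpr
      intro h0
      exact hne k (hinj _ (sub_eq_zero.mp h0))
    have hanti : StrictAnti a := by
      apply strictAnti_nat_of_succ_lt
      intro k
      calc a (k + 1) ≤ 2 * rx * a k := has k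
        _ < 1 * a k := by apply mul_lt_mul_of_pos_right _ (hpos k); linarith
        _ = a k := one_mul _
    have hinjY : Function.Injective (fun k => Y (k + 1)) := by
      intro i j hij
      apply hanti.injective
      change ‖U (Y (i + 1)) - 1‖ = ‖U (Y (j + 1)) - 1‖
      have : Y (i + 1) = Y (j + 1) := hij
      rw [this]
    exact not_injective_infinite_finite _ hinjY
  have hback : ∀ k, Y (k + 1) = 1 → Y 1 = 1 := by
    intro k
    induction k with
    | zero => exact id
    | succ k ih =>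
      intro h
      apply ih
      have hc : Commute x (cm x (Y k)) := by
        have : cm x (Y (k + 1)) = 1 := h
        exact (cm_eq_one_iff _ _).mp this
      rw [hYs k]
      rcases k with _ | k
      · exact cm_eq_one_of_commute U hU hinj x y hc c hy
      · apply cm_eq_one_of_commute U hU hinj x _ hc 1
        rw [map_one]
        exact hale k
  obtain ⟨k, hk⟩ := hex
  exact (cm_eq_one_iff x y).mp (hback k hk)

end Cfsg.Agent.Lib.Helper79.Jordan
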