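import Cfsg.Agent.Lib.Helper79.JordanNorm
import Cfsg.Agent.Lib.Helper79.JordanDual

/-!
# Finite groups of unitary matrices: an abelian normal subgroup `A` with
`[H : H ∩ A] ≤ 12 ^ n` for every abelian subgroup `H`.
-/

namespace Cfsg.Agent.Lib.Helper79.Jordan

open scoped Matrix.Norms.L2Operator MatrixOrder ComplexOrder
open Matrix

theorem unitarize {G : Type*} [Group G] [Finite G] (n : ℕ)
    (R : G →* Matrix (Fin n) (Fin n) ℂ) :
    ∃ U : G →* Matrix (Fin n) (Fin n) ℂ, (∀ g, star (U g) * U g = 1) ∧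
      (∀ g, (U g).trace = (R g).trace) ∧ (∀ g, U g = 1 → R g = 1) := by
  classical
  have := Fintype.ofFinite G
  set P : Matrix (Fin n) (Fin n) ℂ := ∑ g : G, (R g)ᴴ * R g with hP
  have hPinv : ∀ h : G, (R h)ᴴ * P * R h = P := by
    intro h
    rw [hP, Finset.mul_sum, Finset.sum_mul]
    rw [← Equiv.sum_comp (Equiv.mulRight h) (fun g => (R g)ᴴ * R g)]
    apply Finset.sum_congr rfl
    intro g _
    simp only [Equiv.coe_mulRight, map_mul, conjTranspose_mul, mul_assoc]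
  have hPsd : P.PosSemidef := by
    rw [hP]
    apply Matrix.posSemidef_sum
    intro g _
    exact posSemidef_conjTranspose_mul_self _
  have hPd : P.PosDef := by
    have h1 : P = 1 + ∑ g ∈ Finset.univ.erase (1 : G), (R g)ᴴ * R g := by
      rw [hP, ← Finset.add_sum_erase _ _ (Finset.mem_univ (1 : G))]
      simp
    rw [h1]
    apply Matrix.PosDef.add_posSemidef Matrix.PosDef.one
    apply Matrix.posSemidef_sum
    intro g _
    exact posSemidef_conjTranspose_mul_self _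
  obtain ⟨B, hB⟩ := CStarAlgebra.nonneg_iff_eq_star_mul_self.mp hPsd.nonneg
  have hPu : IsUnit P := hPd.isUnit
  have hBu : IsUnit B := by
    rw [hB] at hPu
    exact (IsUnit.mul_iff.mp hPu).2
  have hdet : IsUnit B.det := (Matrix.isUnit_iff_isUnit_det B).mp hBu
  have hB1 : B * B⁻¹ = 1 := Matrix.mul_nonsing_inv B hdet
  have hB2 : B⁻¹ * B = 1 := Matrix.nonsing_inv_mul B hdet
  let U : G →* Matrix (Fin n) (Fin n) ℂ :=
    { toFun := fun g => B * R g * B⁻¹
      map_one' := by rw [map_one, mul_one, hB1]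
      map_mul' := by
        intro g h
        rw [map_mul]
        calc B * (R g * R h) * B⁻¹ = B * R g * 1 * R h * B⁻¹ := by simp only [mul_one, mul_assoc]
          _ = B * R g * (B⁻¹ * B) * R h * B⁻¹ := by rw [hB2]
          _ = _ := by simp only [mul_assoc] }
  have hU : ∀ g, U g = B * R g * B⁻¹ := fun g => rfl
  refine ⟨U, ?_, ?_, ?_⟩
  · intro g
    rw [hU, star_eq_conjTranspose, conjTranspose_mul, conjTranspose_mul]
    calc (B⁻¹)ᴴ * ((R g)ᴴ * Bᴴ) * (B * R g * B⁻¹)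
        = (B⁻¹)ᴴ * ((R g)ᴴ * (star B * B) * R g) * B⁻¹ := by
          rw [star_eq_conjTranspose]; simp only [mul_assoc]
      _ = (B⁻¹)ᴴ * (star B * B) * B⁻¹ := by rw [← hB, hPinv]
      _ = (B * B⁻¹)ᴴ * (B * B⁻¹) := by
          rw [star_eq_conjTranspose, conjTranspose_mul]; simp only [mul_assoc]
      _ = 1 := by rw [hB1]; simp
  · intro g
    rw [hU, Matrix.trace_mul_comm, ← mul_assoc, hB2, one_mul]
  · intro g hg
    rw [hU] at hg
    calc R g = (B⁻¹ * B) * R g * (B⁻¹ * B) := by rw [hB2, one_mul, mul_one]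
      _ = B⁻¹ * (B * R g * B⁻¹) * B := by simp only [mul_assoc]
      _ = 1 := by rw [hg, mul_one, hB2]

lemma norm_le_one_of_unitary {n : ℕ} (u : Matrix (Fin n) (Fin n) ℂ) (h : star u * u = 1) :
    ‖u‖ ≤ 1 := by
  rcases subsingleton_or_nontrivial (Matrix (Fin n) (Fin n) ℂ) with hs | hn
  · have : u = 0 := Subsingleton.elim _ _
    rw [this, norm_zero]; norm_num
  · have h1 : ‖u‖ * ‖u‖ = 1 := by
      rw [← CStarRing.norm_star_mul_self, h, CStarRing.norm_one]
    nlinarith [norm_nonneg u]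

lemma idem_trace {n : ℕ} (e : Matrix (Fin n) (Fin n) ℂ) (he : e * e = e) :
    ∃ k : ℕ, e.trace = k ∧ (e ≠ 0 → 1 ≤ k) := by
  have h1 : IsIdempotentElem (Matrix.toLin' e) := by
    unfold IsIdempotentElem
    rw [Module.End.mul_eq_comp, ← Matrix.toLin'_mul, he]
  have h2 := (LinearMap.IsIdempotentElem.isProj_range _ h1).trace
  rw [Matrix.trace_toLin'_eq] at h2
  refine ⟨_, h2, ?_⟩
  intro hne
  rw [Nat.one_le_iff_ne_zero]
  intro h0
  apply hne
  have h3 : LinearMap.trace ℂ (Fin n → ℂ) (Matrix.toLin' e) = 0 := by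
    rw [Matrix.trace_toLin'_eq, h2, h0, Nat.cast_zero]
  have h4 := LinearMap.IsIdempotentElem.eq_zero_of_trace_eq_zero h1 h3
  have := congrArg LinearMap.toMatrix' h4
  simpa using this

lemma norm_lt_of_spectrum {n : ℕ} (T : Matrix (Fin n) (Fin n) ℂ) (hT : IsStarNormal T)
    (r : ℝ) (hr : 0 < r) (h : ∀ z ∈ spectrum ℂ T, ‖z‖ < r) : ‖T‖ < r := by
  rcases subsingleton_or_nontrivial (Matrix (Fin n) (Fin n) ℂ) with hs | hn
  · have : T = 0 := Subsingleton.elim _ _
    rw [this, norm_zero]; exact hr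
  · obtain ⟨k, hk, hk2⟩ := spectrum.exists_nnnorm_eq_spectralRadius T
    rw [IsStarNormal.spectralRadius_eq_nnnorm] at hk2
    have h3 : ‖k‖₊ = ‖T‖₊ := by exact_mod_cast hk2
    have h4 : ‖k‖ = ‖T‖ := by
      have := congrArg (fun x : NNReal => (x : ℝ)) h3
      simpa using this
    rw [← h4]; exact h k hk

noncomputable def sec (z : ℂ) : ℕ := ⌊(Real.pi - Complex.arg z) * 6 / Real.pi⌋₊

lemma sec_arg_nonneg (z : ℂ) : 0 ≤ (Real.pi - Complex.arg z) * 6 / Real.pi := by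
  have hpi := Real.pi_pos
  have h2 := Complex.arg_le_pi z
  apply div_nonneg _ hpi.le
  nlinarith

lemma sec_lt (z : ℂ) : sec z < 12 := by
  unfold sec
  have hpi := Real.pi_pos
  have h1 := Complex.neg_pi_lt_arg z
  rw [Nat.floor_lt (sec_arg_nonneg z), div_lt_iff₀ hpi]
  push_cast
  nlinarith

lemma close_of_sec_eq (z w : ℂ) (hz : ‖z‖ = 1) (hw : ‖w‖ = 1) (h : sec z = sec w) :
    ‖z⁻¹ * w - ((Real.sqrt 3 / 2 : ℝ) : ℂ)‖ < 1 / 2 := by
  have hpi := Real.pi_pos
  set α := Complex.arg z with hα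
  set β := Complex.arg w with hβ
  have hx1 := Nat.floor_le (sec_arg_nonneg z)
  have hx2 := Nat.lt_floor_add_one ((Real.pi - Complex.arg z) * 6 / Real.pi)
  have hy1 := Nat.floor_le (sec_arg_nonneg w)
  have hy2 := Nat.lt_floor_add_one ((Real.pi - Complex.arg w) * 6 / Real.pi)
  unfold sec at h
  rw [h] at hx1 hx2
  rw [← hα] at hx1 hx2
  rw [← hβ] at hy1 hy2
  set m : ℝ := (⌊(Real.pi - β) * 6 / Real.pi⌋₊ : ℝ) with hm
  have e1 : (Real.pi - α) * 6 / Real.pi - (Real.pi - β) * 6 / Real.pi = (β - α) * 6 / Real.pi := by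
    field_simp; ring
  have hd1 : (β - α) * 6 / Real.pi < 1 := by rw [← e1]; linarith
  have hd2 : -1 < (β - α) * 6 / Real.pi := by rw [← e1]; linarith
  rw [div_lt_iff₀ hpi] at hd1
  rw [lt_div_iff₀ hpi] at hd2
  set θ := β - α with hθ
  have hθ1 : |θ| < Real.pi / 6 := by
    rw [abs_lt]; constructor <;> linarith
  have hcos : Real.sqrt 3 / 2 < Real.cos θ := by
    rw [← Real.cos_abs θ, ← Real.cos_pi_div_six]
    apply Real.cos_lt_cos_of_nonneg_of_le_pi_div_two (abs_nonneg θ) (by linarith) hθ1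
  have hzw : z⁻¹ * w = Complex.exp (θ * Complex.I) := by
    have h1 := Complex.norm_mul_exp_arg_mul_I z
    have h2 := Complex.norm_mul_exp_arg_mul_I w
    rw [hz, ← hα] at h1
    rw [hw, ← hβ] at h2
    simp only [Complex.ofReal_one, one_mul] at h1 h2
    rw [← h1, ← h2, ← Complex.exp_neg, ← Complex.exp_add, hθ]
    congr 1
    push_cast
    ring
  rw [hzw]
  have hre : (Complex.exp (θ * Complex.I) - ((Real.sqrt 3 / 2 : ℝ) : ℂ)).re
      = Real.cos θ - Real.sqrt 3 / 2 := by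
    rw [Complex.sub_re, Complex.exp_ofReal_mul_I_re, Complex.ofReal_re]
  have him : (Complex.exp (θ * Complex.I) - ((Real.sqrt 3 / 2 : ℝ) : ℂ)).im = Real.sin θ := by
    rw [Complex.sub_im, Complex.exp_ofReal_mul_I_im, Complex.ofReal_im, sub_zero]
  have hsq : ‖Complex.exp (θ * Complex.I) - ((Real.sqrt 3 / 2 : ℝ) : ℂ)‖ ^ 2 < (1 / 2) ^ 2 := by
    rw [Complex.sq_norm, Complex.normSq_apply, hre, him]
    have h3 : Real.sqrt 3 * Real.sqrt 3 = 3 := Real.mul_self_sqrt (by norm_num)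
    have h4 := Real.sin_sq_add_cos_sq θ
    have h5 : 0 < Real.sqrt 3 := Real.sqrt_pos.mpr (by norm_num)
    nlinarith
  exact lt_of_pow_lt_pow_left₀ 2 (by norm_num) hsq


/-- the centre of the disc -/
noncomputable def cc : ℂ := ((Real.sqrt 3 / 2 : ℝ) : ℂ)

lemma norm_dual_apply {H : Type*} [CommGroup H] [Finite H] (φ : H →* ℂˣ) (h : H) :
    ‖((φ h : ℂˣ) : ℂ)‖ = 1 := by
  have h1 : ((φ h : ℂˣ) : ℂ) ^ (orderOf h) = 1 := by
    rw [← Units.val_pow_eq_pow_val, ← map_pow, pow_orderOf_eq_one, map_one, Units.val_one]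
  exact Complex.norm_eq_one_of_pow_eq_one h1 (orderOf_pos h).ne'

universe u in
theorem box_lemma {H : Type u} [CommGroup H] [Finite H] (n : ℕ)
    (V : H →* Matrix (Fin n) (Fin n) ℂ) (hV : ∀ g, star (V g) * V g = 1) :
    ∃ (ι : Type u) (_ : Fintype ι) (f : H → ι → Fin 12), Fintype.card ι ≤ n ∧
      ∀ h h' : H, f h = f h' →
        ‖V (h⁻¹ * h') - algebraMap ℂ (Matrix (Fin n) (Fin n) ℂ) cc‖ < 1 / 2 := by
  classical
  have := Fintype.ofFinite H
  have := finite_dual (H := H)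
  have := Fintype.ofFinite (H →* ℂˣ)
  set Λ : Finset (H →* ℂˣ) := Finset.univ.filter (fun φ => idem V φ ≠ 0) with hΛ
  have hidem : ∀ φ, idem V φ * idem V φ = idem V φ := by
    intro φ; rw [idem_mul_idem, if_pos rfl]
  choose k hk1 hk2 using fun φ => idem_trace (idem V φ) (hidem φ)
  have hsum : ∑ φ, k φ = n := by
    have h1 : ((∑ φ, k φ : ℕ) : ℂ) = (n : ℂ) := by
      push_cast
      rw [← Finset.sum_congr rfl (fun φ _ => hk1 φ), ← Matrix.trace_sum, sum_idem, Matrix.trace_one]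
      simp
    exact_mod_cast h1
  have hcard : Λ.card ≤ n := by
    calc Λ.card = ∑ φ ∈ Λ, 1 := by simp
      _ ≤ ∑ φ ∈ Λ, k φ := by
          apply Finset.sum_le_sum
          intro φ hφ
          exact hk2 φ (Finset.mem_filter.mp hφ).2
      _ ≤ ∑ φ, k φ := Finset.sum_le_sum_of_subset (Finset.subset_univ _)
      _ = n := hsum
  refine ⟨Λ, inferInstance, fun h φ => ⟨sec ((φ.1 h : ℂˣ) : ℂ), sec_lt _⟩, by simpa using hcard, ?_⟩
  intro h h' hf
  set g := h⁻¹ * h' with hg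
  have hT : V g - algebraMap ℂ (Matrix (Fin n) (Fin n) ℂ) cc
      = ∑ φ : H →* ℂˣ, (((φ g : ℂˣ) : ℂ) - cc) • idem V φ := by
    simp only [sub_smul, Finset.sum_sub_distrib]
    rw [← map_eq_sum_idem, ← Finset.smul_sum, sum_idem, Algebra.algebraMap_eq_smul_one]
  have hnormal : IsStarNormal (V g - algebraMap ℂ (Matrix (Fin n) (Fin n) ℂ) cc) := by
    constructor
    have h1 : star (V g) * V g = 1 := hV g
    have h2 : V g * star (V g) = 1 := mul_eq_one_comm.mp h1
    have h3 : Commute (star (V g)) (V g) := by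
      unfold Commute SemiconjBy; rw [h1, h2]
    rw [star_sub, ← algebraMap_star_comm]
    apply Commute.sub_left
    · apply Commute.sub_right h3
      exact (Algebra.commute_algebraMap_right _ _)
    · exact Algebra.commute_algebraMap_left _ _
  apply norm_lt_of_spectrum _ hnormal _ (by norm_num)
  intro z hz
  rw [hT] at hz
  obtain ⟨φ, hφ, rfl⟩ := spectrum_sum_subset (idem V) (idem_mul_idem V) (sum_idem V) _ hz
  have hφΛ : φ ∈ Λ := Finset.mem_filter.mpr ⟨Finset.mem_univ _, hφ⟩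
  have h1 := congrFun hf ⟨φ, hφΛ⟩
  have h2 : sec ((φ h : ℂˣ) : ℂ) = sec ((φ h' : ℂˣ) : ℂ) := by
    simpa using congrArg Fin.val h1
  have h3 := close_of_sec_eq _ _ (norm_dual_apply φ h) (norm_dual_apply φ h') h2
  have h4 : ((φ g : ℂˣ) : ℂ) = ((φ h : ℂˣ) : ℂ)⁻¹ * ((φ h' : ℂˣ) : ℂ) := by
    rw [hg, map_mul, map_inv]; simp
  rw [h4]
  exact h3


theorem jordan_unitary {G : Type*} [Group G] [Finite G] (n : ℕ)
    (U : G →* Matrix (Fin n) (Fin n) ℂ) (hU : ∀ g, star (U g) * U g = 1)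
    (hinj : ∀ g, U g = 1 → g = 1) :
    ∃ A : Subgroup G, A.Normal ∧ (∀ x ∈ A, ∀ y ∈ A, x * y = y * x) ∧
      ∀ H : Subgroup G, (∀ x ∈ H, ∀ y ∈ H, x * y = y * x) → (A.subgroupOf H).index ≤ 12 ^ n := by
  classical
  have hU1 : ∀ g, ‖U g‖ ≤ 1 := fun g => norm_le_one_of_unitary _ (hU g)
  set S : Set G := {g | ‖U g - algebraMap ℂ (Matrix (Fin n) (Fin n) ℂ) cc‖ < 1 / 2} with hS
  have hconj : ∀ g ∈ S, ∀ h : G, h * g * h⁻¹ ∈ S := by
    intro g hg h
    change ‖U (h * g * h⁻¹) - algebraMap ℂ (Matrix (Fin n) (Fin n) ℂ) cc‖ < 1 / 2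
    have hh : U h * U h⁻¹ = 1 := by rw [← map_mul, mul_inv_cancel, map_one]
    have e1 : U (h * g * h⁻¹) - algebraMap ℂ (Matrix (Fin n) (Fin n) ℂ) cc
        = U h * (U g - algebraMap ℂ (Matrix (Fin n) (Fin n) ℂ) cc) * U h⁻¹ := by
      rw [map_mul, map_mul, mul_sub, sub_mul]
      congr 1
      rw [← Algebra.commutes, mul_assoc, hh, mul_one]
    rw [e1]
    calc _ ≤ ‖U h * (U g - algebraMap ℂ (Matrix (Fin n) (Fin n) ℂ) cc)‖ * ‖U h⁻¹‖ :=
          norm_mul_le _ _
      _ ≤ (‖U h‖ * ‖U g - algebraMap ℂ (Matrix (Fin n) (Fin n) ℂ) cc‖) * ‖U h⁻¹‖ :=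
          mul_le_mul_of_nonneg_right (norm_mul_le _ _) (norm_nonneg _)
      _ ≤ (1 * ‖U g - algebraMap ℂ (Matrix (Fin n) (Fin n) ℂ) cc‖) * 1 := by
          apply mul_le_mul _ (hU1 _) (norm_nonneg _) (by positivity)
          exact mul_le_mul_of_nonneg_right (hU1 _) (norm_nonneg _)
      _ = ‖U g - algebraMap ℂ (Matrix (Fin n) (Fin n) ℂ) cc‖ := by ring
      _ < 1 / 2 := hg
  have hcs : Group.conjugatesOfSet S = S := by
    apply Set.Subset.antisymm
    · intro x hx
      obtain ⟨a, ha, hax⟩ := Group.mem_conjugatesOfSet_iff.mp hx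
      obtain ⟨c, hc⟩ := isConj_iff.mp hax
      rw [← hc]; exact hconj a ha c
    · exact Group.subset_conjugatesOfSet
  have hcomm : ∀ x ∈ S, ∀ y ∈ S, x * y = y * x := by
    intro x hx y hy
    exact commute_of_close U hU1 hinj cc x y hx hy
  refine ⟨Subgroup.normalClosure S, Subgroup.normalClosure_normal, ?_, ?_⟩
  · have hA : Subgroup.normalClosure S = Subgroup.closure S := by
      unfold Subgroup.normalClosure; rw [hcs]
    rw [hA]
    intro x hx y hy
    have := (Subgroup.isMulCommutative_closure hcomm).is_comm.comm ⟨x, hx⟩ ⟨y, hy⟩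
    exact congrArg Subtype.val this
  · intro H hH
    let _ : CommGroup H := { (inferInstance : Group H) with
      mul_comm := fun a b => Subtype.ext (hH a a.2 b b.2) }
    obtain ⟨ι, _, f, hι, hf⟩ := box_lemma n (U.comp H.subtype) (fun g => hU g)
    set A := Subgroup.normalClosure S
    have hinjq : Function.Injective (fun q : H ⧸ A.subgroupOf H => f q.out) := by
      intro q q' hq
      have h1 := hf q.out q'.out hq
      have h2 : ((q.out⁻¹ * q'.out : H) : G) ∈ S := h1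
      have h3 : (q.out⁻¹ * q'.out : H) ∈ A.subgroupOf H :=
        Subgroup.mem_subgroupOf.mpr (Subgroup.subset_normalClosure h2)
      rw [← QuotientGroup.out_eq' q, ← QuotientGroup.out_eq' q']
      exact QuotientGroup.eq.mpr h3
    calc (A.subgroupOf H).index = Nat.card (H ⧸ A.subgroupOf H) := rfl
      _ ≤ Nat.card (ι → Fin 12) := Nat.card_le_card_of_injective _ hinjq
      _ = 12 ^ Fintype.card ι := by
          rw [Nat.card_eq_fintype_card, Fintype.card_fun, Fintype.card_fin]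
      _ ≤ 12 ^ n := Nat.pow_le_pow_right (by norm_num) hι

end Cfsg.Agent.Lib.Helper79.Jordan
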