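import Mathlib

/-!
# Self-dual one-dimensional modules over a finite field extension

`K / F` finite fields, `χ : H →* K` an injective homomorphism of a finite commutative group whose
image spans `K` over `F`.  `K` carries a nondegenerate `F`-bilinear form invariant under
multiplication by `χ h` iff (`K = F` and `|H| ≤ 2`) or (`[K:F] = 2m` and `|H|` divides `|F|^m+1`).
-/

set_option autoImplicit false

namespace Cfsg.Agent.Lib.Helper79.SelfDualField

open Polynomial

variable {F K H : Type*} [Field F] [Fintype F] [Field K] [Finite K] [Algebra F K]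
  [CommGroup H] [Finite H]

/-- the Frobenius of `K / F` -/
noncomputable abbrev Fr (F K : Type*) [Field F] [Fintype F] [Field K] [Finite K] [Algebra F K] :
    K ≃ₐ[F] K :=
  FiniteField.frobeniusAlgEquivOfAlgebraic F K

lemma Fr_pow_apply (j : ℕ) (x : K) : (Fr F K ^ j) x = x ^ (Fintype.card F ^ j) := by
  rw [AlgEquiv.coe_pow, FiniteField.coe_frobeniusAlgEquivOfAlgebraic_iterate]

/-- An `F`-automorphism fixing all `χ h` is the identity. -/
lemma eq_one_of_fix (χ : H →* K) (hspan : Submodule.span F (Set.range χ) = ⊤) (σ : K ≃ₐ[F] K)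
    (hσ : ∀ h : H, σ (χ h) = χ h) : σ = 1 := by
  ext x
  have hx : x ∈ Submodule.span F (Set.range χ) := by rw [hspan]; trivial
  induction hx using Submodule.span_induction with
  | mem y hy => obtain ⟨h, rfl⟩ := hy; simpa using hσ h
  | zero => simp
  | add a b _ _ ha hb => simp only [map_add, ha, hb]
  | smul c a _ ha => simp only [map_smul, ha]

lemma dvd_of_fix (χ : H →* K) (hspan : Submodule.span F (Set.range χ) = ⊤) (j : ℕ)
    (hj : ∀ h : H, (χ h) ^ (Fintype.card F ^ j) = χ h) : Module.finrank F K ∣ j := by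
  have h1 : Fr F K ^ j = 1 := by
    apply eq_one_of_fix χ hspan
    intro h
    rw [Fr_pow_apply, hj]
  rw [← FiniteField.orderOf_frobeniusAlgEquivOfAlgebraic F K]
  exact orderOf_dvd_of_pow_eq_one h1

/-- moving polynomials in `χ g` across an invariant form -/
lemma form_aeval (χ : H →* K) (B : LinearMap.BilinForm F K)
    (hB : ∀ h : H, ∀ x y : K, B (χ h * x) (χ h * y) = B x y) (g : H) (P : F[X]) (x y : K) :
    B (aeval (χ g) P * x) y = B x (aeval (χ g⁻¹) P * y) := by
  induction P using Polynomial.induction_on' with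
  | add p q hp hq => simp only [map_add, add_mul, LinearMap.add_apply, hp, hq]
  | monomial n a =>
    have h1 : B (χ (g ^ n) * x) (χ (g ^ n) * (χ (g⁻¹ ^ n) * y)) = B x (χ (g⁻¹ ^ n) * y) :=
      hB _ _ _
    have h2 : χ (g ^ n) * (χ (g⁻¹ ^ n) * y) = y := by
      rw [← mul_assoc, ← map_mul, ← mul_pow, mul_inv_cancel, one_pow, map_one, one_mul]
    rw [h2] at h1
    simp only [aeval_monomial, map_pow] at h1 ⊢
    rw [mul_assoc, mul_assoc, ← Algebra.smul_def, ← Algebra.smul_def, map_smul, map_smul,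
      LinearMap.smul_apply, h1]

/-- the key consequence of self-duality -/
theorem exists_exponent (χ : H →* K) (hinj : Function.Injective χ)
    (hspan : Submodule.span F (Set.range χ) = ⊤) (B : LinearMap.BilinForm F K)
    (hnd : B.Nondegenerate) (hB : ∀ h : H, ∀ x y : K, B (χ h * x) (χ h * y) = B x y) :
    ∃ k : ℕ, k < Module.finrank F K ∧ ∀ h : H, (χ h) ^ (Fintype.card F ^ k + 1) = 1 := by
  haveI : IsCyclic H := isCyclic_of_subgroup_isDomain χ hinj
  obtain ⟨g, hg⟩ := IsCyclic.exists_generator (α := H)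
  have hint : IsIntegral F (χ g) := Algebra.IsIntegral.isIntegral _
  have h0 : aeval (χ g⁻¹) (minpoly F (χ g)) = 0 := by
    have h1 : ∀ x : K, B x (aeval (χ g⁻¹) (minpoly F (χ g)) * 1) = 0 := by
      intro x
      rw [← form_aeval χ B hB g, minpoly.aeval, zero_mul, map_zero, LinearMap.zero_apply]
    have h2 := hnd.2 _ h1
    simpa using h2
  have hconj : IsConjRoot F (χ g) (χ g⁻¹) := (isConjRoot_iff_aeval_eq_zero hint).2 h0
  obtain ⟨σ, hσ⟩ := isConjRoot_iff_exists_algEquiv.1 hconj
  obtain ⟨⟨k, hk⟩, hk2⟩ := (FiniteField.bijective_frobeniusAlgEquivOfAlgebraic_pow F K).2 σ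
  refine ⟨k, hk, ?_⟩
  have hk3 : (Fr F K ^ k) = σ := hk2
  have h3 : (χ g⁻¹) ^ (Fintype.card F ^ k) = χ g := by
    rw [← Fr_pow_apply, hk3, hσ]
  have h4 : (χ g) ^ (Fintype.card F ^ k + 1) = 1 := by
    have h5 : χ g⁻¹ * χ g = 1 := by rw [← map_mul, inv_mul_cancel, map_one]
    have h6 : (χ g⁻¹ * χ g) ^ (Fintype.card F ^ k) = 1 := by rw [h5, one_pow]
    rw [mul_pow, h3] at h6
    rw [pow_succ, mul_comm]
    exact h6
  have h7 : g ^ (Fintype.card F ^ k + 1) = 1 := by
    apply hinj
    rw [map_pow, h4, map_one]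
  intro h
  obtain ⟨i, rfl⟩ := Subgroup.mem_zpowers_iff.1 (hg h)
  rw [← map_pow, ← zpow_natCast, ← zpow_mul, mul_comm, zpow_mul, zpow_natCast, h7, one_zpow,
    map_one]

/-- forward direction in the field model -/
theorem forward (χ : H →* K) (hinj : Function.Injective χ)
    (hspan : Submodule.span F (Set.range χ) = ⊤) (B : LinearMap.BilinForm F K)
    (hnd : B.Nondegenerate) (hB : ∀ h : H, ∀ x y : K, B (χ h * x) (χ h * y) = B x y) :
    (Module.finrank F K = 1 ∧ Nat.card H ≤ 2) ∨
      (Even (Module.finrank F K) ∧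
        Nat.card H ∣ Fintype.card F ^ (Module.finrank F K / 2) + 1) := by
  obtain ⟨k, hk, hk1⟩ := exists_exponent χ hinj hspan B hnd hB
  have : IsCyclic H := isCyclic_of_subgroup_isDomain χ hinj
  obtain ⟨g, hg⟩ := IsCyclic.exists_generator (α := H)
  have hcard : Nat.card H = orderOf g := (orderOf_eq_card_of_forall_mem_zpowers hg).symm
  have hgk : g ^ (Fintype.card F ^ k + 1) = 1 := by
    apply hinj
    rw [map_pow, hk1, map_one]
  have hdvd : Nat.card H ∣ Fintype.card F ^ k + 1 := by
    rw [hcard]; exact orderOf_dvd_of_pow_eq_one hgk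
  have h2k : Module.finrank F K ∣ 2 * k := by
    apply dvd_of_fix χ hspan
    intro h
    have h1 : (χ h) ^ (Fintype.card F ^ k) * χ h = 1 := by rw [← pow_succ]; exact hk1 h
    have h2 : ((χ h) ^ (Fintype.card F ^ k) * χ h) ^ (Fintype.card F ^ k) = 1 := by
      rw [h1, one_pow]
    rw [mul_pow, ← pow_mul, ← pow_add (Fintype.card F), ← two_mul] at h2
    have hne : (χ h) ^ (Fintype.card F ^ k) ≠ 0 := by
      intro h0; rw [h0, zero_mul] at h1; exact zero_ne_one h1
    apply mul_right_cancel₀ hne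
    rw [h2, mul_comm, h1]
  obtain ⟨c, hc⟩ := h2k
  have hc2 : c < 2 := by
    by_contra hcon
    have : 2 ≤ c := by omega
    have h3 : Module.finrank F K * 2 ≤ Module.finrank F K * c := Nat.mul_le_mul_left _ this
    omega
  interval_cases c
  · -- k = 0
    left
    have hk0 : k = 0 := by omega
    subst hk0
    have hsq : ∀ h : H, χ h ^ 2 = 1 := by
      intro h
      have := hk1 h
      simpa using this
    constructor
    · have h1 : Module.finrank F K ∣ 1 := by
        apply dvd_of_fix χ hspan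
        intro h
        have h2 : χ h = 1 ∨ χ h = -1 := sq_eq_one_iff.1 (hsq h)
        have h3 : ∃ a : F, χ h = algebraMap F K a := by
          rcases h2 with h2 | h2
          · exact ⟨1, by rw [h2, map_one]⟩
          · exact ⟨-1, by rw [h2, map_neg, map_one]⟩
        obtain ⟨a, ha⟩ := h3
        rw [← Fr_pow_apply, ha, AlgEquiv.commutes]
      exact Nat.dvd_one.1 h1
    · have h1 : Nat.card H ∣ 2 := by simpa using hdvd
      exact Nat.le_of_dvd (by norm_num) h1
  · right
    have hn : Module.finrank F K = 2 * k := by omega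
    refine ⟨⟨k, by omega⟩, ?_⟩
    have : Module.finrank F K / 2 = k := by omega
    rw [this]
    exact hdvd

/-- converse direction in the field model -/
theorem backward (χ : H →* K) (m : ℕ) (hm : Nat.card H ∣ Fintype.card F ^ m + 1) :
    ∃ B : LinearMap.BilinForm F K, B.Nondegenerate ∧
      ∀ h : H, ∀ x y : K, B (χ h * x) (χ h * y) = B x y := by
  have hχ : ∀ h : H, χ h * (χ h) ^ (Fintype.card F ^ m) = 1 := by
    intro h
    rw [← pow_succ', ← map_pow]
    obtain ⟨c, hc⟩ := hm
    rw [hc, pow_mul, pow_card_eq_one', one_pow, map_one]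
  have hnd := traceForm_nondegenerate F K
  refine ⟨(Algebra.traceForm F K).compl₂ ((Fr F K ^ m : K ≃ₐ[F] K).toLinearMap), ⟨?_, ?_⟩, ?_⟩
  · intro x hx
    apply hnd.1 x
    intro y
    have := hx ((Fr F K ^ m : K ≃ₐ[F] K).symm y)
    simpa using this
  · intro y hy
    have h1 : (Fr F K ^ m : K ≃ₐ[F] K) y = 0 := by
      apply hnd.2
      intro x
      have := hy x
      simpa using this
    exact (map_eq_zero_iff _ (AlgEquiv.injective _)).1 h1
  · intro h x y
    simp only [LinearMap.compl₂_apply, AlgEquiv.toLinearMap_apply, Algebra.traceForm_apply, map_mul]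
    rw [Fr_pow_apply (x := χ h)]
    have : χ h * x * (χ h ^ Fintype.card F ^ m * (Fr F K ^ m) y)
        = (χ h * (χ h) ^ (Fintype.card F ^ m)) * (x * (Fr F K ^ m) y) := by ring
    rw [this, hχ, one_mul]

section model

universe u v w

variable {F : Type u} [Field F] [Fintype F] {H : Type v} [CommGroup H] [Finite H]
  {V : Type w} [AddCommGroup V] [Module F V] [FiniteDimensional F V]

/-- cyclicity of an irreducible module -/
lemma exists_asAlgebraHom_apply (ρ : Representation F H V)
    (hirr : ∀ U : Submodule F V, (∀ h : H, ∀ u ∈ U, ρ h u ∈ U) → U = ⊥ ∨ U = ⊤)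
    (w : V) (hw : w ≠ 0) (v : V) : ∃ b : MonoidAlgebra F H, ρ.asAlgebraHom b w = v := by
  let ev : MonoidAlgebra F H →ₗ[F] V := (LinearMap.applyₗ w).comp ρ.asAlgebraHom.toLinearMap
  have hev : ∀ b, ev b = ρ.asAlgebraHom b w := fun b => rfl
  have h1 : LinearMap.range ev = ⊥ ∨ LinearMap.range ev = ⊤ := by
    apply hirr
    rintro h u ⟨b, rfl⟩
    refine ⟨MonoidAlgebra.of F H h * b, ?_⟩
    rw [hev, hev, map_mul, Representation.asAlgebraHom_of]
    rfl
  rcases h1 with h1 | h1
  · exfalso
    apply hw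
    have : w ∈ LinearMap.range ev := ⟨1, by rw [hev, map_one]; rfl⟩
    rw [h1] at this
    simpa using this
  · have : v ∈ LinearMap.range ev := by rw [h1]; trivial
    exact this

theorem exists_field_model [Nontrivial V] (ρ : Representation F H V)
    (hirr : ∀ U : Submodule F V, (∀ h : H, ∀ u ∈ U, ρ h u ∈ U) → U = ⊥ ∨ U = ⊤) :
    ∃ (K : Type (max u v)) (_ : Field K) (_ : Algebra F K) (_ : Finite K) (χ : H →* K)
      (e : K ≃ₗ[F] V),
      (∀ h x, e (χ h * x) = ρ h (e x)) ∧ Submodule.span F (Set.range χ) = ⊤ := by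
  obtain ⟨v₀, hv₀⟩ := exists_ne (0 : V)
  let ev : MonoidAlgebra F H →ₗ[F] V := (LinearMap.applyₗ v₀).comp ρ.asAlgebraHom.toLinearMap
  have hev : ∀ b, ev b = ρ.asAlgebraHom b v₀ := fun b => rfl
  have hsurj : Function.Surjective ev := fun v => exists_asAlgebraHom_apply ρ hirr v₀ hv₀ v
  let 𝔪 : Ideal (MonoidAlgebra F H) :=
    { carrier := {a | ev a = 0}
      add_mem' := by
        intro a b ha hb
        simp only [Set.mem_setOf_eq] at ha hb ⊢
        rw [map_add, ha, hb, add_zero]
      zero_mem' := by simp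
      smul_mem' := by
        intro c a ha
        simp only [Set.mem_setOf_eq] at ha ⊢
        rw [hev] at ha ⊢
        rw [smul_eq_mul, map_mul, Module.End.mul_apply, ha, map_zero] }
  have hmem : ∀ a, a ∈ 𝔪 ↔ ev a = 0 := fun a => Iff.rfl
  have hmax : 𝔪.IsMaximal := by
    rw [Ideal.isMaximal_iff]
    constructor
    · rw [hmem, hev, map_one]
      exact hv₀
    · intro J x hJ hx hxJ
      rw [hmem, hev] at hx
      obtain ⟨b, hb⟩ := exists_asAlgebraHom_apply ρ hirr _ hx v₀
      have h1 : b * x - 1 ∈ 𝔪 := by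
        rw [hmem, hev, map_sub, map_mul, map_one, LinearMap.sub_apply, Module.End.mul_apply, hb]
        simp
      have h2 : (1 : MonoidAlgebra F H) = b * x - (b * x - 1) := by ring
      rw [h2]
      exact J.sub_mem (J.mul_mem_left b hxJ) (hJ h1)
  letI : Field (MonoidAlgebra F H ⧸ 𝔪) := Ideal.Quotient.field 𝔪
  have hker : 𝔪.restrictScalars F = LinearMap.ker ev := by
    ext a
    simp [hmem]
  let e : (MonoidAlgebra F H ⧸ 𝔪) ≃ₗ[F] V :=
    (Submodule.Quotient.restrictScalarsEquiv F 𝔪).symm ≪≫ₗ (Submodule.quotEquivOfEq _ _ hker) ≪≫ₗ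
      ev.quotKerEquivOfSurjective hsurj
  have he : ∀ a, e (Ideal.Quotient.mk 𝔪 a) = ev a := fun a => rfl
  have hfinV : Finite V := Module.finite_of_finite F
  have hfin : Finite (MonoidAlgebra F H ⧸ 𝔪) := Finite.of_equiv V e.symm.toEquiv
  let χ : H →* (MonoidAlgebra F H ⧸ 𝔪) :=
    (Ideal.Quotient.mk 𝔪 : MonoidAlgebra F H →* _).comp (MonoidAlgebra.of F H)
  have hχ : ∀ h, χ h = Ideal.Quotient.mk 𝔪 (MonoidAlgebra.of F H h) := fun h => rfl
  refine ⟨MonoidAlgebra F H ⧸ 𝔪, inferInstance, inferInstance, hfin, χ, e, ?_, ?_⟩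
  · intro h x
    obtain ⟨a, rfl⟩ := Ideal.Quotient.mk_surjective x
    rw [hχ, ← map_mul, he, he, hev, hev, map_mul, Representation.asAlgebraHom_of]
    rfl
  · rw [eq_top_iff]
    intro x _
    obtain ⟨a, rfl⟩ := Ideal.Quotient.mk_surjective x
    induction a using MonoidAlgebra.induction_on with
    | of g => exact Submodule.subset_span ⟨g, rfl⟩
    | add f g hf hg => rw [map_add]; exact Submodule.add_mem _ (hf trivial) (hg trivial)
    | smul r f hf =>
      have : Ideal.Quotient.mk 𝔪 (r • f) = r • Ideal.Quotient.mk 𝔪 f := rfl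
      rw [this]
      exact Submodule.smul_mem _ _ (hf trivial)

end model

end Cfsg.Agent.Lib.Helper79.SelfDualField
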